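import Cfsg.Agent.H10.StemCriteria
import Cfsg.Agent.H13.Groups
import Mathlib.GroupTheory.OrderOfElement

/-!
The Schur multiplier of M11 is trivial.
-/

set_option autoImplicit false

namespace Cfsg.Agent.H10

open Cfsg

/-- A Sylow subgroup generated by an element and an element of order `p` normalising it. -/
theorem exists_sylow_pair {G : Type*} [Group G] [Finite G] {p : ℕ} [Fact p.Prime] {x y : G}
    {k : ℕ} (hx : orderOf x = p ^ k) (hy : y ^ p = 1) (hyx : y * x * y⁻¹ ∈ Subgroup.zpowers x)
    (hny : y ∉ Subgroup.zpowers x) (hG : (Nat.card G).factorization p = k + 1) :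
    ∃ Q : Sylow p G, (Q : Subgroup G) = Subgroup.closure {x, y} := by
  set A := Subgroup.zpowers x with hA
  set B := Subgroup.zpowers y with hB
  have hAB : Subgroup.closure ({x, y} : Set G) = A ⊔ B := by
    rw [hA, hB, Subgroup.zpowers_eq_closure, Subgroup.zpowers_eq_closure, ← Subgroup.closure_union]
    congr 1
  have hnorm : B ≤ Subgroup.normalizer (A : Set G) := by
    rw [hB, Subgroup.zpowers_le, Subgroup.mem_normalizer_iff_map_conj_eq]
    refine Subgroup.eq_of_le_of_card_ge ?_ ?_
    · rw [MonoidHom.map_zpowers]; exact Subgroup.zpowers_le.2 hyx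
    · exact (Subgroup.card_map_of_injective (MulAut.conj y).injective).ge
  have hpA : IsPGroup p A := IsPGroup.of_card (n := k) (by rw [Nat.card_zpowers, hx])
  have hpB : IsPGroup p B := by
    intro u
    obtain ⟨i, hi⟩ := Subgroup.mem_zpowers_iff.1 u.2
    exact ⟨1, Subtype.ext (by
      rw [pow_one, SubgroupClass.coe_pow, ← hi, ← zpow_natCast, ← zpow_mul, mul_comm, zpow_mul,
        zpow_natCast, hy, one_zpow, Subgroup.coe_one])⟩
  have hp : IsPGroup p ↥(A ⊔ B) := IsPGroup.to_sup_of_normal_left' hpA hpB hnorm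
  obtain ⟨Q, hQ⟩ := hp.exists_le_sylow
  refine ⟨Q, ?_⟩
  rw [hAB]
  have hQc : Nat.card Q = p ^ (k + 1) := by rw [Q.card_eq_multiplicity, hG]
  obtain ⟨n, hn⟩ := IsPGroup.iff_card.1 hp
  have hlt : p ^ k < Nat.card ↥(A ⊔ B) := by
    rw [← hx, ← Nat.card_zpowers]
    refine lt_of_le_of_ne (Subgroup.card_le_of_le le_sup_left) fun h => hny ?_
    have := Subgroup.eq_of_le_of_card_ge (le_sup_left : A ≤ A ⊔ B) h.ge
    exact this.symm ▸ (le_sup_right : B ≤ A ⊔ B) (Subgroup.mem_zpowers y)
  refine (Subgroup.eq_of_le_of_card_ge hQ ?_).symm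
  rw [hQc, hn]
  rw [hn] at hlt
  exact Nat.pow_le_pow_right (Fact.out : p.Prime).pos
    ((Nat.pow_lt_pow_iff_right (Fact.out : p.Prime).one_lt).1 hlt)

open Cfsg.Agent.H13 Cfsg.Agent.H12 in
/-- A table of images as an element of a certified group. -/
theorem exists_grp_elem (L : List Level) {S : List PL} (hS : S.all (validB 24) = true)
    (h : check 24 L S = true) {a : PL} (ha : validB 24 a = true)
    (hs : sift 24 (chain 24 L S) a.1 = true) : ∃ g : grp S, img (toFin g) = a.1 := by
  obtain ⟨σ, -, rfl⟩ := valid_of_validB ha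
  refine ⟨⟨toFin.symm σ, mem_grp_of_sift L hS h _ (by rwa [toFin.apply_symm_apply])⟩, ?_⟩
  exact congrArg img (toFin.apply_symm_apply σ)

open Cfsg.Agent.H13 in
/-- Elements of a certified group are compared by their tables. -/
theorem grp_ext {S : List PL} {g h : grp S} (e : img (toFin g) = img (toFin h)) : g = h :=
  Subtype.ext (toFin.injective (img_injective e))

open Cfsg.Agent.H13 in
theorem img_grp_mul {S : List PL} (g h : grp S) :
    img (toFin (g * h : grp S)) = mulL (img (toFin g)) (img (toFin h)) := by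
  rw [Subgroup.coe_mul, map_mul, mulL_img]

open Cfsg.Agent.H13 in
theorem img_grp_one {S : List PL} : img (toFin ((1 : grp S) : Equiv.Perm GolayPt)) = List.range 24 := by
  rw [Subgroup.coe_one, map_one, img_one]

/-- The five tables used for M11. -/
def m11Tab : List Cfsg.Agent.H13.PL :=
  [([0, 1, 3, 2, 8, 17, 13, 19, 6, 18, 15, 21, 16, 12, 23, 11, 9, 14, 4, 22, 10, 7, 20, 5],
    [0, 1, 3, 2, 18, 23, 8, 21, 4, 16, 20, 15, 13, 6, 17, 10, 12, 5, 9, 7, 22, 11, 19, 14]),
   ([0, 1, 3, 2, 4, 5, 9, 10, 13, 6, 7, 11, 12, 8, 14, 20, 18, 23, 16, 21, 15, 19, 22, 17],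
    [0, 1, 3, 2, 4, 5, 9, 10, 13, 6, 7, 11, 12, 8, 14, 20, 18, 23, 16, 21, 15, 19, 22, 17]),
   ([0, 1, 2, 4, 12, 15, 16, 7, 9, 13, 10, 22, 3, 8, 21, 19, 18, 17, 6, 5, 14, 20, 23, 11],
    [0, 1, 2, 12, 3, 19, 18, 7, 13, 8, 10, 23, 4, 9, 20, 5, 6, 17, 16, 15, 21, 14, 11, 22]),
   ([0, 1, 2, 13, 8, 19, 4, 17, 6, 16, 7, 22, 9, 18, 14, 5, 12, 10, 3, 15, 20, 21, 23, 11],
    [0, 1, 2, 18, 6, 15, 8, 10, 4, 12, 17, 23, 16, 3, 14, 19, 9, 7, 13, 5, 20, 21, 11, 22]),
   ([0, 2, 1, 3, 4, 23, 8, 10, 6, 16, 7, 15, 12, 18, 14, 11, 9, 17, 13, 22, 20, 21, 19, 5],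
    [0, 2, 1, 3, 4, 23, 8, 10, 6, 16, 7, 15, 12, 18, 14, 11, 9, 17, 13, 22, 20, 21, 19, 5])]

open Cfsg.Agent.H13 Cfsg.Agent.H13.Data in
/-- The Schur multiplier of M11 is trivial. -/
theorem mult_M11 : Cfsg.HasCyclicSchurMultiplier ↥Spor.M11 1 := by
  rw [M11_eq]
  have hv : ∀ i : Fin 5, validB 24 (m11Tab.getD i (oneP 24)) = true := by decide +kernel
  have hs : ∀ i : Fin 5, sift 24 (chain 24 m11Levels g11) (m11Tab.getD i (oneP 24)).1 = true := by
    decide +kernel
  choose t ht using fun i => exists_grp_elem m11Levels g11_valid m11_check (hv i) (hs i)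
  set a := t 0
  set b := t 1
  set x := t 2
  set y := t 3
  set n := t 4
  have ea : img (toFin (a : Equiv.Perm GolayPt)) = _ := ht 0
  have eb : img (toFin (b : Equiv.Perm GolayPt)) = _ := ht 1
  have ex : img (toFin (x : Equiv.Perm GolayPt)) = _ := ht 2
  have ey : img (toFin (y : Equiv.Perm GolayPt)) = _ := ht 3
  have en : img (toFin (n : Equiv.Perm GolayPt)) = _ := ht 4
  haveI : Finite (grp g11) := Nat.finite_of_card_ne_zero (by rw [card_g11]; decide)
  refine Cfsg.Agent.H64.hasCyclicSchurMultiplier_one fun {Γ} _ _ σ hσ p hp => ?_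
  have : Fact p.Prime := ⟨hp⟩
  have f2 : (7920 : ℕ).factorization 2 = 4 := by
    rw [show (7920 : ℕ) = 2 ^ 4 * 495 from rfl, Nat.factorization_mul (by decide) (by decide),
      Finsupp.add_apply, Nat.Prime.factorization_pow (by decide), Finsupp.single_eq_same,
      Nat.factorization_eq_zero_of_not_dvd (by decide : ¬ 2 ∣ 495)]
  have f3 : (7920 : ℕ).factorization 3 = 2 := by
    rw [show (7920 : ℕ) = 3 ^ 2 * 880 from rfl, Nat.factorization_mul (by decide) (by decide),
      Finsupp.add_apply, Nat.Prime.factorization_pow (by decide), Finsupp.single_eq_same,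
      Nat.factorization_eq_zero_of_not_dvd (by decide : ¬ 3 ∣ 880)]
  by_cases h2 : p = 2
  · subst h2
    have hbb : b * b = 1 := grp_ext (by
      simp only [img_grp_mul, img_grp_one, ea, eb, ex, ey, en]; decide +kernel)
    have hba : b * a * b⁻¹ = a ^ 3 := by
      rw [show b⁻¹ = b from (eq_inv_of_mul_eq_one_left hbb).symm]
      refine grp_ext ?_
      rw [pow_succ, pow_succ, pow_one]
      simp only [img_grp_mul, ea, eb, ex, ey, en]
      decide +kernel
    have hord : orderOf a = 2 ^ 3 := by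
      refine orderOf_eq_prime_pow (fun h => ?_) ?_
      · have h' : a * a * (a * a) = 1 := by rw [← h]; simp [pow_succ, mul_assoc]
        have e := congrArg (fun g : grp g11 => img (toFin g)) h'
        simp only [img_grp_mul, img_grp_one, ea, eb, ex, ey, en] at e
        revert e
        decide +kernel
      · refine grp_ext ?_
        rw [show a ^ 2 ^ 3 = (a * a * (a * a)) * (a * a * (a * a)) by simp [pow_succ, mul_assoc]]
        simp only [img_grp_mul, img_grp_one, ea, eb, ex, ey, en]
        decide +kernel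
    refine not_two_dvd_ker_of_semidihedral hσ (exists_sylow_pair hord (by rwa [pow_two]) ?_ ?_
      (by rw [card_g11, f2])) hord hbb hba
    · rw [hba]; exact Subgroup.pow_mem _ (Subgroup.mem_zpowers a) 3
    · intro hmem
      rw [← mem_powers_iff_mem_zpowers, Submonoid.mem_powers_iff] at hmem
      obtain ⟨i, hi⟩ := hmem
      have hcomm : b * a = a * b := by rw [← hi]; exact ((Commute.refl a).pow_left i).eq
      have e := congrArg (fun g : grp g11 => img (toFin g)) hcomm
      simp only [img_grp_mul, ea, eb, ex, ey, en] at e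
      revert e
      decide +kernel
  by_cases h3 : p = 3
  · subst h3
    have hxy : x * y = y * x := grp_ext (by simp only [img_grp_mul, ea, eb, ex, ey, en]; decide +kernel)
    have hx3 : x ^ 3 = 1 := grp_ext (by
      rw [pow_succ, pow_succ, pow_one]; simp only [img_grp_mul, img_grp_one, ea, eb, ex, ey, en]; decide +kernel)
    have hy3 : y ^ 3 = 1 := grp_ext (by
      rw [pow_succ, pow_succ, pow_one]; simp only [img_grp_mul, img_grp_one, ea, eb, ex, ey, en]; decide +kernel)
    have hnn : n * n = 1 := grp_ext (by simp only [img_grp_mul, img_grp_one, ea, eb, ex, ey, en]; decide +kernel)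
    have hni : n⁻¹ = n := (eq_inv_of_mul_eq_one_left hnn).symm
    have hyi : y⁻¹ = y * y := inv_eq_of_mul_eq_one_right (by rw [← mul_assoc, ← pow_three'] ; exact hy3)
    refine not_dvd_ker_of_rank_two hσ (by decide) ?_ hx3 hxy
      (grp_ext (by rw [hni]; simp only [img_grp_mul, ea, eb, ex, ey, en]; decide +kernel) : n * x * n⁻¹ = x)
      (grp_ext (by rw [hni, hyi]; simp only [img_grp_mul, ea, eb, ex, ey, en]; decide +kernel) :
        n * y * n⁻¹ = y⁻¹)
    refine exists_sylow_pair (k := 1) ?_ hy3 (by rw [← hxy, mul_inv_cancel_right]; exact Subgroup.mem_zpowers x) ?_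
      (by rw [card_g11, f3])
    · rw [pow_one]
      refine orderOf_eq_prime hx3 fun h => ?_
      have e := congrArg (fun g : grp g11 => img (toFin g)) h
      simp only [img_grp_one, ea, eb, ex, ey, en] at e
      revert e
      decide +kernel
    · intro hmem
      rw [← mem_powers_iff_mem_zpowers, Submonoid.mem_powers_iff] at hmem
      obtain ⟨i, hi⟩ := hmem
      have hd : y = 1 ∨ y = x ∨ y = x * x := by
        rw [← hi, pow_eq_pow_mod i hx3]
        have := Nat.mod_lt i (show 0 < 3 by decide)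
        interval_cases (i % 3) <;> simp [pow_two]
      rcases hd with h | h | h <;>
      · have e := congrArg (fun g : grp g11 => img (toFin g)) h
        simp only [img_grp_mul, img_grp_one, ea, eb, ex, ey, en] at e
        revert e
        decide +kernel
  -- the remaining primes have cyclic Sylow subgroups
  refine Cfsg.Agent.H64.not_dvd_card_ker_of_isCyclic hσ fun Q => ?_
  have hQ : Nat.card Q = p ^ (7920 : ℕ).factorization p := by
    rw [Q.card_eq_multiplicity, card_g11]
  have hle : (7920 : ℕ).factorization p ≤ 1 := by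
    by_contra h
    have hdvd : p ^ 2 ∣ 7920 :=
      (pow_dvd_pow p (by omega : 2 ≤ (7920 : ℕ).factorization p)).trans (Nat.ordProj_dvd 7920 p)
    have hp88 : p ≤ 88 := by
      have := Nat.le_of_dvd (by decide) hdvd
      nlinarith
    have key : ∀ q < 89, q.Prime → q ^ 2 ∣ 7920 → q = 2 ∨ q = 3 := by decide +kernel
    rcases key p (by omega) hp hdvd with h | h
    exacts [h2 h, h3 h]
  interval_cases h : (7920 : ℕ).factorization p
  · rw [pow_zero] at hQ
    have := (Nat.card_eq_one_iff_unique.1 hQ).1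
    infer_instance
  · rw [pow_one] at hQ
    exact isCyclic_of_prime_card hQ

end Cfsg.Agent.H10
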