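import Cfsg.Agent.H10.M12Data
import Cfsg.Agent.H13.Groups
import Cfsg.Prelude.Def_KGroupFacts

/-!
A double cover of M12 with the kernel in the commutator subgroup.
-/

set_option autoImplicit false
set_option maxRecDepth 4000

namespace Cfsg.Agent.H10

open Cfsg Cfsg.Agent.H13 Cfsg.Agent.H13.Data M12Data
open scoped commutatorElement

/-- The double cover. -/
def coverGroup : Subgroup (Equiv.Perm (Fin 48)) := genGroup 48 coverGens

theorem coverGens_valid : ∀ a ∈ coverGens, Valid (⊤ : Subgroup (Equiv.Perm (Fin 48))) a := fun a ha =>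
  valid_of_validB ((List.all_eq_true.1 (by decide +kernel : coverGens.all (validB 48) = true)) a ha)

theorem coverElems_valid : coverElems.all (validB 48) = true := by decide +kernel

theorem cover_check : check 48 coverLevels coverGens = true := by decide +kernel

theorem card_coverGroup : Nat.card coverGroup = 190080 := by
  rw [coverGroup, (check_spec coverLevels coverGens coverGens_valid cover_check).2]
  decide +kernel

/-- The permutations preserving the first 24 points. -/
def preserving24 : Subgroup (Equiv.Perm (Fin 48)) where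
  carrier := {g | ∀ i : Fin 48, (g i : ℕ) < 24 ↔ (i : ℕ) < 24}
  one_mem' := fun _ => Iff.rfl
  mul_mem' {g h} hg hh i := (hg (h i)).trans (hh i)
  inv_mem' {g} hg i := by
    have := hg (g⁻¹ i)
    rw [show g (g⁻¹ i) = i from g.apply_symm_apply i] at this
    exact this.symm

theorem coverGroup_le : coverGroup ≤ preserving24 := by
  refine genGroup_le fun a ha => ?_
  obtain ⟨σ, -, rfl⟩ := coverGens_valid a ha
  refine ⟨σ, fun i => ?_, rfl⟩
  have h : ∀ a ∈ coverGens, ∀ i : Fin 48, (a.1.getD i 0 < 24 ↔ (i : ℕ) < 24) := by decide +kernel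
  have h' := h _ ha i
  rwa [img_getD] at h'

/-- Restriction to the first 24 points. -/
def projHom : coverGroup →* Equiv.Perm (Fin 24) :=
  MonoidHom.mk' (fun g =>
    { toFun := fun i => ⟨((g : Equiv.Perm (Fin 48)) (i.castLE (by decide)) : ℕ),
        ((coverGroup_le g.2) _).2 i.isLt⟩
      invFun := fun i => ⟨((g : Equiv.Perm (Fin 48))⁻¹ (i.castLE (by decide)) : ℕ),
        ((coverGroup_le (inv_mem g.2)) _).2 i.isLt⟩
      left_inv := fun i => by
        have e := congrArg Fin.val
          ((g : Equiv.Perm (Fin 48)).symm_apply_apply (i.castLE (by decide)))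
        exact Fin.ext e
      right_inv := fun i => by
        have e := congrArg Fin.val
          ((g : Equiv.Perm (Fin 48)).apply_symm_apply (i.castLE (by decide)))
        exact Fin.ext e })
    fun g h => Equiv.ext fun i => Fin.ext rfl

theorem img_projHom (g : coverGroup) :
    img (projHom g) = (img (g : Equiv.Perm (Fin 48))).take 24 := by
  refine List.ext_getElem (by simp [img]) fun i h1 h2 => ?_
  simp [img, projHom, Fin.castLE]

/-- The map onto M12. -/
def coverHom₀ : coverGroup →* Equiv.Perm GolayPt :=
  (toFin.symm : Equiv.Perm (Fin 24) →* Equiv.Perm GolayPt).comp projHom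

theorem toFin_coverHom₀ (g : coverGroup) : toFin (coverHom₀ g) = projHom g :=
  toFin.apply_symm_apply _

theorem coverHom₀_range : coverHom₀.range = Spor.M12 := by
  rw [M12_eq]
  apply le_antisymm
  · have h : coverGroup ≤ ((grp g12).comap coverHom₀).map coverGroup.subtype := by
      refine genGroup_le fun a ha => ?_
      obtain ⟨σ, -, rfl⟩ := coverGens_valid a ha
      have hσ : σ ∈ coverGroup := Subgroup.subset_closure ha
      refine ⟨σ, ⟨⟨σ, hσ⟩, ?_, rfl⟩, rfl⟩
      show coverHom₀ ⟨σ, hσ⟩ ∈ grp g12
      refine mem_grp_of_sift m12Levels g12_valid m12_check _ ?_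
      rw [toFin_coverHom₀, img_projHom]
      have hall : ∀ a ∈ coverGens, sift 24 (chain 24 m12Levels g12) (a.1.take 24) = true := by
        decide +kernel
      exact hall _ ha
    rintro _ ⟨g, rfl⟩
    obtain ⟨w, hw, e⟩ := h g.2
    rw [show w = g from Subtype.ext e] at hw
    exact hw
  · refine grp_le g12_valid fun a ha g hg => ?_
    have hlift : ∀ a ∈ g12, ∃ b ∈ coverGens, b.1.take 24 = a.1 := by decide +kernel
    obtain ⟨b, hb, e⟩ := hlift a ha
    obtain ⟨σ, -, rfl⟩ := coverGens_valid b hb
    refine ⟨⟨σ, Subgroup.subset_closure hb⟩, toFin.injective (img_injective ?_)⟩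
    rw [toFin_coverHom₀, img_projHom, hg]
    exact e

/-- The covering map. -/
def coverHom : coverGroup →* Spor.M12 :=
  coverHom₀.codRestrict Spor.M12 fun g => coverHom₀_range.le ⟨g, rfl⟩

theorem coverHom_surjective : Function.Surjective coverHom := fun x => by
  obtain ⟨g, hg⟩ : (x : Equiv.Perm GolayPt) ∈ coverHom₀.range := coverHom₀_range.ge x.2
  exact ⟨g, Subtype.ext hg⟩

theorem card_coverHom_ker : Nat.card coverHom.ker = 2 := by
  have h := coverHom.ker.card_mul_index
  rw [Subgroup.index_ker, MonoidHom.range_eq_top.2 coverHom_surjective, Subgroup.card_top,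
    card_coverGroup, show Nat.card Spor.M12 = 95040 by rw [M12_eq, card_g12]] at h
  generalize Nat.card coverHom.ker = k at h ⊢
  omega

theorem coverHom_isStem : Cfsg.IsStemExtension coverHom := by
  refine ⟨coverHom_surjective, ?_, ?_⟩
  · intro x hx
    rw [Subgroup.mem_center_iff]
    intro g
    have hmem : g * x * g⁻¹ ∈ coverHom.ker := coverHom.normal_ker.conj_mem x hx g
    by_cases hx1 : x = 1
    · rw [hx1, mul_one, one_mul]
    have huniv : ∀ y ∈ coverHom.ker, y = 1 ∨ y = x := by
      intro y hy
      by_contra h
      rw [not_or] at h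
      have : Finite coverHom.ker := Nat.finite_of_card_ne_zero (by rw [card_coverHom_ker]; decide)
      have : Fintype coverHom.ker := Fintype.ofFinite _
      have hc := Finset.card_le_univ ({⟨1, one_mem _⟩, ⟨x, hx⟩, ⟨y, hy⟩} : Finset coverHom.ker)
      rw [Finset.card_insert_of_notMem (by simp [Ne.symm hx1, Ne.symm h.1]),
        Finset.card_pair (by simp [Ne.symm h.2]), ← Nat.card_eq_fintype_card,
        card_coverHom_ker] at hc
      omega
    rcases huniv _ hmem with e | e
    · exact absurd (conj_eq_one_iff.1 e) hx1
    · exact mul_inv_eq_iff_eq_mul.1 e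
  · intro x hx
    have hsift : ∀ a ∈ coverElems, sift 48 (chain 48 coverLevels coverGens) a.1 = true := by
      decide +kernel
    have hel : ∀ i : Fin 3, ∃ g : coverGroup,
        img (g : Equiv.Perm (Fin 48)) = (coverElems.getD i (oneP 48)).1 ∧
        img ((g : Equiv.Perm (Fin 48))⁻¹) = (coverElems.getD i (oneP 48)).2 := by
      intro i
      have hi : ∀ i : Fin 3, coverElems.getD i (oneP 48) ∈ coverElems := by decide +kernel
      obtain ⟨σ, -, e⟩ := valid_of_validB (List.all_eq_true.1 coverElems_valid _ (hi i))
      refine ⟨⟨σ, ?_⟩, by rw [e], by rw [e]⟩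
      rw [coverGroup, ← SetLike.mem_coe,
        (check_spec coverLevels coverGens coverGens_valid cover_check).1]
      refine mem_prodSet_of_sift _ (chain_valid _ _ coverGens_valid) _ ?_
      have := hsift _ (hi i)
      rwa [e] at this
    choose w hw hwi using hel
    have hc1 : w 0 = ⁅w 1, w 2⁆ := Subtype.ext (img_injective (by
      rw [commutatorElement_def, Subgroup.coe_mul, Subgroup.coe_mul, Subgroup.coe_mul,
        Subgroup.coe_inv, Subgroup.coe_inv, ← mulL_img, ← mulL_img, ← mulL_img, hw, hw, hw, hwi,
        hwi]
      decide +kernel))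
    have hne : w 0 ≠ 1 := fun h => by
      have e := hw 0
      rw [h, Subgroup.coe_one, img_one] at e
      revert e
      decide +kernel
    have hwk : w 0 ∈ coverHom.ker := by
      refine MonoidHom.mem_ker.2 (Subtype.ext (toFin.injective (img_injective ?_)))
      show img (toFin (coverHom₀ (w 0))) = img (toFin 1)
      rw [toFin_coverHom₀, img_projHom, hw, map_one, img_one]
      decide +kernel
    by_cases hx1 : x = 1
    · rw [hx1]; exact one_mem _
    have heq : x = w 0 := by
      by_contra h
      have : Finite coverHom.ker := Nat.finite_of_card_ne_zero (by rw [card_coverHom_ker]; decide)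
      have : Fintype coverHom.ker := Fintype.ofFinite _
      have hc := Finset.card_le_univ
        ({⟨1, one_mem _⟩, ⟨x, hx⟩, ⟨w 0, hwk⟩} : Finset coverHom.ker)
      rw [Finset.card_insert_of_notMem (by simp [Ne.symm hx1, Ne.symm hne]),
        Finset.card_pair (by simp [h]), ← Nat.card_eq_fintype_card, card_coverHom_ker] at hc
      omega
    rw [heq, hc1, commutator_def]
    exact Subgroup.commutator_mem_commutator (Subgroup.mem_top _) (Subgroup.mem_top _)

end Cfsg.Agent.H10
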