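import Cfsg.Agent.H82.Mult
import Cfsg.Agent.H82.Central

/-!
Stem extensions of a triply transitive group whose point stabiliser is perfect with trivial
multiplier: the kernel comes from the abelianisation of a two-point stabiliser.
-/

set_option autoImplicit false

universe u v

namespace Cfsg.Agent.H10

open MulAction

variable {G : Type u} [Group G]

/-- A perfect group with trivial multiplier lifts into every central extension of it. -/
theorem exists_section_of_perfect [Finite G] (H : Subgroup G)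
    (hperf : commutator H = ⊤) (hM : Cfsg.HasCyclicSchurMultiplier H 1)
    {Γ : Type u} [Group Γ] [Finite Γ] {σ : Γ →* G} (hσ : Function.Surjective σ)
    (hc : σ.ker ≤ Subgroup.center Γ) : ∃ s : H →* Γ, ∀ h, σ (s h) = h := by
  set U := H.comap σ
  let f : U →* H := σ.subgroupComap H
  have hf : Function.Surjective f := H82.subgroupComap_surjective hσ H
  have hmap : (commutator U).map f = ⊤ := by
    rw [H82.map_commutator_of_surjective hf, hperf]
  let D : Subgroup U := commutator U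
  let g : D →* H := f.comp D.subtype
  have hg : Function.Surjective g := by
    intro h
    obtain ⟨x, hx, rfl⟩ := (hmap.ge (Subgroup.mem_top h) : h ∈ (commutator U).map f)
    exact ⟨⟨x, hx⟩, rfl⟩
  have hfc : f.ker ≤ Subgroup.center U := H82.comap_subgroupOf_central σ hc H
  have hDperf : commutator D = ⊤ := by
    have hle : commutator U ≤ ⁅D, D⁆ := H82.commutator_le_of_forall_exists_center D fun x => by
      obtain ⟨y, hy⟩ := hg (f x)
      exact ⟨y, y.2, hfc (by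
        rw [MonoidHom.mem_ker, map_mul, map_inv, show f (y : U) = f x from hy, inv_mul_cancel])⟩
    rw [eq_top_iff]
    intro x _
    have hx : (x : U) ∈ (commutator D).map D.subtype := by
      rw [Subgroup.map_subtype_commutator]; exact hle x.2
    obtain ⟨y, hy, e⟩ := hx
    rwa [Subtype.ext e] at hy
  have hstem : Cfsg.IsStemExtension g := by
    refine ⟨hg, fun x hx => ?_, hDperf ▸ le_top⟩
    rw [Subgroup.mem_center_iff]
    exact fun y => Subtype.ext (Subgroup.mem_center_iff.1 (hfc (x := (x : U)) hx) y)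
  have hinj := H82.hasCyclicSchurMultiplier_one_iff.1 hM D g hstem
  let e : D ≃* H := MulEquiv.ofBijective g ⟨hinj, hg⟩
  exact ⟨U.subtype.comp (D.subtype.comp e.symm.toMonoidHom),
    fun h => congrArg Subtype.val (e.apply_symm_apply h)⟩

/-- The data of a triply transitive action used below. -/
structure ThreePointData (G : Type u) [Group G] (X : Type v) [MulAction G X] where
  a : X
  b : X
  t : G
  h₀ : G
  ne : a ≠ b
  ta : t • a = b
  tb : t • b = a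
  ha : h₀ • a = a
  tt : t * t = 1
  hh : h₀ * h₀ = 1
  th3 : (t * h₀) ^ 3 = 1
  tconj : ∃ g : G, (g⁻¹ * t * g) • a = a
  trans : ∀ c : X, c ≠ a → ∃ h : G, h • a = a ∧ h • b = c
  trans₂ : ∀ c : X, c ≠ a → c ≠ b → ∃ d : G, d • a = a ∧ d • b = b ∧ d • (h₀ • b) = c

/-- The kernel of a stem extension of a triply transitive group with perfect point stabiliser of
trivial multiplier is a homomorphic image of the two-point stabiliser. -/
theorem exists_delta [Finite G] {X : Type v} [MulAction G X] (T : ThreePointData G X)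
    (hperf : commutator (stabilizer G T.a) = ⊤)
    (hM : Cfsg.HasCyclicSchurMultiplier (stabilizer G T.a) 1)
    {Γ : Type u} [Group Γ] [Finite Γ] {σ : Γ →* G} (hσ : Cfsg.IsStemExtension σ) :
    ∃ δ : ↥(stabilizer G T.a ⊓ stabilizer G T.b) →* σ.ker, Function.Surjective δ := by
  obtain ⟨hsur, hc, hder⟩ := hσ
  set H := stabilizer G T.a with hH
  set D := stabilizer G T.a ⊓ stabilizer G T.b with hDdef
  obtain ⟨s, hs⟩ := exists_section_of_perfect H hperf hM hsur hc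
  have hcen : ∀ z ∈ σ.ker, ∀ w : Γ, w * z = z * w :=
    fun z hz w => Subgroup.mem_center_iff.1 (hc hz) w
  have hker : ∀ {u : Γ}, σ u = 1 → u ∈ σ.ker := fun h => MonoidHom.mem_ker.2 h
  -- a lift of `t` squaring to one, in a cube relation with the lift of `h₀`
  obtain ⟨g, hg⟩ := T.tconj
  obtain ⟨γ, hγ⟩ := hsur g
  set u : H := ⟨g⁻¹ * T.t * g, hg⟩ with hu
  obtain ⟨τ₀, hτ₀⟩ : ∃ x, x = γ * s u * γ⁻¹ := ⟨_, rfl⟩
  have hστ₀ : σ τ₀ = T.t := by
    rw [hτ₀, map_mul, map_mul, hs, map_inv, hγ, hu]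
    show g * (g⁻¹ * T.t * g) * g⁻¹ = T.t
    group
  have hτ₀2 : τ₀ * τ₀ = 1 := by
    have : u * u = 1 := Subtype.ext (by
      show g⁻¹ * T.t * g * (g⁻¹ * T.t * g) = 1
      rw [show g⁻¹ * T.t * g * (g⁻¹ * T.t * g) = g⁻¹ * (T.t * T.t) * g by group, T.tt]
      group)
    rw [hτ₀, show γ * s u * γ⁻¹ * (γ * s u * γ⁻¹) = γ * (s u * s u) * γ⁻¹ by group, ← map_mul,
      this, map_one]
    group
  obtain ⟨η, hη⟩ : ∃ x, x = s ⟨T.h₀, T.ha⟩ := ⟨_, rfl⟩
  have hη2 : η * η = 1 := by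
    rw [hη, ← map_mul, show (⟨T.h₀, T.ha⟩ : H) * ⟨T.h₀, T.ha⟩ = 1 from Subtype.ext T.hh, map_one]
  obtain ⟨z, hz⟩ : ∃ x, x = (τ₀ * η) ^ 3 := ⟨_, rfl⟩
  have hzk : z ∈ σ.ker := hker (by rw [hz, map_pow, map_mul, hστ₀, hη, hs]; exact T.th3)
  have hτi : τ₀⁻¹ = τ₀ := inv_eq_of_mul_eq_one_right hτ₀2
  have hηi : η⁻¹ = η := inv_eq_of_mul_eq_one_right hη2
  have hz2 : z * z = 1 := by
    have e : τ₀ * z * τ₀⁻¹ = z⁻¹ := by
      rw [hz, ← conj_pow, ← inv_pow, mul_inv_rev, hτi, hηi,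
        show τ₀ * (τ₀ * η) * τ₀ = τ₀ * τ₀ * (η * τ₀) by group, hτ₀2, one_mul]
    rw [hcen z hzk τ₀, mul_inv_cancel_right] at e
    nth_rewrite 1 [e]
    exact inv_mul_cancel z
  obtain ⟨τ, hτ⟩ : ∃ x, x = τ₀ * z := ⟨_, rfl⟩
  have hστ : σ τ = T.t := by rw [hτ, map_mul, hστ₀, MonoidHom.mem_ker.1 hzk, mul_one]
  have hτ2 : τ * τ = 1 := by
    rw [hτ, show τ₀ * z * (τ₀ * z) = τ₀ * (z * τ₀) * z by group, ← hcen z hzk τ₀,
      show τ₀ * (τ₀ * z) * z = τ₀ * τ₀ * (z * z) by group, hτ₀2, hz2, one_mul]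
  have hτ3 : (τ * η) ^ 3 = 1 := by
    rw [hτ, mul_assoc, ← hcen z hzk η, ← mul_assoc, (show Commute (τ₀ * η) z from
      hcen z hzk _).mul_pow, ← hz, pow_three, hz2, mul_one, hz2]
  have hτi' : τ⁻¹ = τ := inv_eq_of_mul_eq_one_right hτ2
  have hrel : τ * η * τ = η * τ * η := by
    have h1 : τ * η * τ * (η * τ * η) = 1 := by
      rw [← hτ3, pow_three]; group
    rw [eq_inv_of_mul_eq_one_left h1, mul_inv_rev, mul_inv_rev, hτi', hηi, mul_assoc]
  -- conjugation by `τ` on the two-point stabiliser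
  have htt : T.t⁻¹ = T.t := inv_eq_of_mul_eq_one_right T.tt
  have htD : ∀ d : D, T.t * (d : G) * T.t ∈ D := by
    intro d
    obtain ⟨da, db⟩ : (d : G) • T.a = T.a ∧ (d : G) • T.b = T.b := d.2
    refine ⟨?_, ?_⟩
    · show (T.t * (d : G) * T.t) • T.a = T.a
      rw [mul_smul, mul_smul, T.ta, db, T.tb]
    · show (T.t * (d : G) * T.t) • T.b = T.b
      rw [mul_smul, mul_smul, T.tb, da, T.ta]
  let ιt : D →* H := MonoidHom.mk' (fun d => ⟨T.t * (d : G) * T.t, (htD d).1⟩) fun d e =>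
    Subtype.ext (by
      show T.t * ((d : G) * e) * T.t = T.t * d * T.t * (T.t * e * T.t)
      rw [show T.t * (d : G) * T.t * (T.t * e * T.t) = T.t * d * (T.t * T.t) * e * T.t by group,
        T.tt, mul_one, ← mul_assoc T.t (d : G) (e : G)])
  let inc : D →* H := Subgroup.inclusion inf_le_left
  let f₁ : D →* Γ := (MulAut.conj τ).toMonoidHom.comp (s.comp inc)
  let f₂ : D →* Γ := s.comp ιt
  have hdiff : ∀ d, f₁ d * (f₂ d)⁻¹ ∈ σ.ker := fun d => hker (by
    show σ (τ * s (inc d) * τ⁻¹ * (s (ιt d))⁻¹) = 1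
    rw [map_mul, map_mul, map_mul, map_inv, map_inv, hs, hs, hστ, htt]
    show T.t * (d : G) * T.t * (T.t * (d : G) * T.t)⁻¹ = 1
    exact mul_inv_cancel _)
  let δ : D →* σ.ker := MonoidHom.mk' (fun d => ⟨f₁ d * (f₂ d)⁻¹, hdiff d⟩) fun d e =>
    Subtype.ext (by
      show f₁ (d * e) * (f₂ (d * e))⁻¹ = f₁ d * (f₂ d)⁻¹ * (f₁ e * (f₂ e)⁻¹)
      rw [map_mul, map_mul, mul_inv_rev, mul_assoc (f₁ d) (f₂ d)⁻¹, hcen _ (hdiff e) (f₂ d)⁻¹]
      group)
  refine ⟨δ, ?_⟩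
  let N : Subgroup Γ := δ.range.map σ.ker.subtype
  have hNk : ∀ w ∈ N, w ∈ σ.ker := by
    rintro w ⟨x, -, rfl⟩; exact x.2
  have hconjD : ∀ d : D, ∃ w ∈ N, τ * s (inc d) = s (ιt d) * τ * w := fun d => by
    refine ⟨(δ d : Γ), ⟨δ d, ⟨d, rfl⟩, rfl⟩, ?_⟩
    have e : τ * s (inc d) = f₁ d * τ := by
      show _ = τ * s (inc d) * τ⁻¹ * τ
      group
    have e2 : f₁ d = (δ d : Γ) * f₂ d := by
      show _ = f₁ d * (f₂ d)⁻¹ * f₂ d
      group
    rw [e, e2, mul_assoc]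
    exact (hcen _ (δ d).2 _).symm
  -- the subgroup of lifts
  let Mem : Γ → Prop := fun x => (∃ h : H, ∃ w ∈ N, x = s h * w) ∨
    ∃ h k : H, ∃ w ∈ N, x = s h * τ * s k * w
  have mul_w : ∀ {x w : Γ}, Mem x → w ∈ N → Mem (x * w) := by
    rintro x w (⟨h, v, hv, rfl⟩ | ⟨h, k, v, hv, rfl⟩) hw
    · exact Or.inl ⟨h, v * w, mul_mem hv hw, mul_assoc _ _ _⟩
    · exact Or.inr ⟨h, k, v * w, mul_mem hv hw, mul_assoc _ _ _⟩
  have mul_s : ∀ {x : Γ} (h : H), Mem x → Mem (s h * x) := by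
    rintro x h (⟨k, v, hv, rfl⟩ | ⟨k, l, v, hv, rfl⟩)
    · exact Or.inl ⟨h * k, v, hv, by rw [map_mul, mul_assoc]⟩
    · exact Or.inr ⟨h * k, l, v, hv, by rw [map_mul]; group⟩
  have hτs : ∀ h : H, Mem (τ * s h * τ) := by
    intro h
    by_cases hb : (h : G) • T.b = T.b
    · obtain ⟨w, hw, e⟩ := hconjD ⟨h, h.2, hb⟩
      refine Or.inl ⟨ιt ⟨h, h.2, hb⟩, w, hw, ?_⟩
      rw [show s h = s (inc ⟨h, h.2, hb⟩) from rfl, e,
        mul_assoc _ w τ, ← hcen w (hNk w hw) τ]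
      rw [show s (ιt ⟨h, h.2, hb⟩) * τ * (τ * w) = s (ιt ⟨h, h.2, hb⟩) * (τ * τ) * w by group,
        hτ2, mul_one]
    · have hba : (h : G) • T.b ≠ T.a := fun e => by
        have hne : T.b ≠ T.a := T.ne.symm
        exact hne ((MulAction.injective (h : G)) (e.trans h.2.symm))
      obtain ⟨d, hda, hdb, hd⟩ := T.trans₂ _ hba hb
      let d₁ : D := ⟨d, Subgroup.mem_inf.2 ⟨hda, hdb⟩⟩
      have hd2 : ((inc d₁ * ⟨T.h₀, T.ha⟩ : H)⁻¹ * h : H).1 ∈ D := by
        refine ⟨((inc d₁ * ⟨T.h₀, T.ha⟩ : H)⁻¹ * h).2, ?_⟩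
        show ((d * T.h₀)⁻¹ * (h : G)) • T.b = T.b
        rw [mul_smul, inv_smul_eq_iff, mul_smul, hd]
      obtain ⟨w₁, hw₁, e₁⟩ := hconjD d₁
      obtain ⟨w₂, hw₂, e₂⟩ := hconjD ⟨_, hd2⟩
      set d₂ : D := ⟨_, hd2⟩ with hd₂
      have hh : s h = s (inc d₁) * η * s (inc d₂) := by
        rw [hη, ← map_mul, ← map_mul]
        congr 1
        exact Subtype.ext (by
          show (h : G) = d * T.h₀ * ((d * T.h₀)⁻¹ * h)
          group)
      -- move `τ` through `d₂`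
      have e₃ : s (inc d₂) * τ = τ * s (ιt d₂) * w₂ := by
        calc s (inc d₂) * τ = τ * (τ * s (inc d₂)) * τ := by rw [← mul_assoc, hτ2, one_mul]
          _ = τ * s (ιt d₂) * (τ * (w₂ * τ)) := by rw [e₂]; group
          _ = τ * s (ιt d₂) * w₂ := by
            rw [← hcen w₂ (hNk w₂ hw₂) τ, ← mul_assoc τ τ w₂, hτ2, one_mul]
      have key : τ * s h * τ =
          s (ιt d₁) * (η * τ * η) * (s (ιt d₂) * (w₂ * w₁)) := by
        calc τ * s h * τ = τ * s (inc d₁) * η * (s (inc d₂) * τ) := by rw [hh]; group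
          _ = s (ιt d₁) * τ * (w₁ * (η * τ * s (ιt d₂) * w₂)) := by rw [e₁, e₃]; group
          _ = s (ιt d₁) * τ * (η * τ * s (ιt d₂) * w₂ * w₁) := by
            rw [hcen w₁ (hNk w₁ hw₁) (η * τ * s (ιt d₂) * w₂)]
          _ = s (ιt d₁) * (τ * η * τ) * (s (ιt d₂) * (w₂ * w₁)) := by group
          _ = _ := by rw [hrel]
      refine Or.inr ⟨ιt d₁ * ⟨T.h₀, T.ha⟩, ⟨T.h₀, T.ha⟩ * ιt d₂, w₂ * w₁, mul_mem hw₂ hw₁, ?_⟩
      rw [key, map_mul, map_mul, ← hη]
      group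
  have mem_mul : ∀ {x y : Γ}, Mem x → Mem y → Mem (x * y) := by
    rintro x y (⟨h, v, hv, rfl⟩ | ⟨h, k, v, hv, rfl⟩) hy
    · rw [mul_assoc, ← hcen v (hNk v hv) y, ← mul_assoc]
      exact mul_w (mul_s h hy) hv
    · rw [mul_assoc _ v y, ← hcen v (hNk v hv) y, ← mul_assoc]
      refine mul_w ?_ hv
      rcases hy with ⟨l, w, hw, rfl⟩ | ⟨l, m, w, hw, rfl⟩
      · exact Or.inr ⟨h, k * l, w, hw, by rw [map_mul]; group⟩
      · rw [show s h * τ * s k * (s l * τ * s m * w) = s h * (τ * (s k * s l) * τ * s m) * w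
          by group, ← map_mul]
        refine mul_w (mul_s h ?_) hw
        rcases hτs (k * l) with ⟨n, w', hw', e⟩ | ⟨n, n', w', hw', e⟩
        · rw [e, mul_assoc _ w', ← hcen w' (hNk w' hw'), ← mul_assoc, ← map_mul]
          exact Or.inl ⟨_, w', hw', rfl⟩
        · rw [e, mul_assoc _ w', ← hcen w' (hNk w' hw'), ← mul_assoc,
            mul_assoc (s n * τ) (s n'), ← map_mul]
          exact Or.inr ⟨_, _, w', hw', rfl⟩
  let S : Subgroup Γ :=
    { carrier := {x | Mem x}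
      one_mem' := Or.inl ⟨1, 1, one_mem _, by rw [map_one, mul_one]⟩
      mul_mem' := fun {_ _} hx hy => mem_mul hx hy
      inv_mem' := by
        rintro x (⟨h, v, hv, rfl⟩ | ⟨h, k, v, hv, rfl⟩)
        · refine Or.inl ⟨h⁻¹, v⁻¹, inv_mem hv, ?_⟩
          rw [mul_inv_rev, ← map_inv]
          exact (hcen _ (inv_mem (hNk v hv)) _).symm
        · refine Or.inr ⟨k⁻¹, h⁻¹, v⁻¹, inv_mem hv, ?_⟩
          rw [mul_inv_rev, mul_inv_rev, mul_inv_rev, hτi', ← map_inv, ← map_inv,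
            ← mul_assoc (s k⁻¹)]
          exact (hcen _ (inv_mem (hNk v hv)) _).symm }
  have hcov : ∀ x : Γ, ∃ y ∈ S, y⁻¹ * x ∈ σ.ker := by
    intro x
    by_cases hxa : σ x • T.a = T.a
    · refine ⟨s ⟨σ x, hxa⟩, Or.inl ⟨_, 1, one_mem _, (mul_one _).symm⟩, hker ?_⟩
      rw [map_mul, map_inv, hs, inv_mul_cancel]
    · obtain ⟨h, hha, hhb⟩ := T.trans _ hxa
      have hk : ((h * T.t)⁻¹ * σ x) • T.a = T.a := by
        rw [mul_smul, inv_smul_eq_iff, mul_smul, T.ta, hhb]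
      refine ⟨s ⟨h, hha⟩ * τ * s ⟨_, hk⟩, Or.inr ⟨_, _, 1, one_mem _, (mul_one _).symm⟩, hker ?_⟩
      rw [map_mul, map_inv, map_mul, map_mul, hs, hs, hστ]
      show (h * T.t * ((h * T.t)⁻¹ * σ x))⁻¹ * σ x = 1
      group
  have hSle : commutator Γ ≤ S :=
    (H82.commutator_le_of_forall_exists_center S fun x => by
      obtain ⟨y, hy, hxy⟩ := hcov x
      exact ⟨y, hy, hc hxy⟩).trans (Subgroup.commutator_le_self _)
  intro z'
  have hzS := hSle (hder z'.2)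
  rcases hzS with ⟨h, w, hw, e⟩ | ⟨h, k, w, hw, e⟩
  · obtain ⟨⟨x, hx⟩, ⟨d, hd⟩, hwx⟩ := hw
    refine ⟨d, hd.trans (Subtype.ext ?_)⟩
    have hσe := congrArg σ e
    rw [map_mul, hs, MonoidHom.mem_ker.1 z'.2, ← hwx,
      show σ (σ.ker.subtype ⟨x, hx⟩) = 1 from hx, mul_one] at hσe
    have h1 : h = 1 := Subtype.ext hσe.symm
    rw [h1, map_one, one_mul, ← hwx] at e
    exact e.symm
  · exfalso
    have hσe := congrArg σ e
    rw [map_mul, map_mul, map_mul, hs, hs, hστ, MonoidHom.mem_ker.1 z'.2,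
      MonoidHom.mem_ker.1 (hNk w hw), mul_one] at hσe
    have : ((h : G) * T.t * (k : G)) • T.a = T.a := by rw [← hσe, one_smul]
    rw [mul_smul, mul_smul, show (k : G) • T.a = T.a from k.2, T.ta] at this
    have hab : T.b = T.a := (MulAction.injective (h : G)) (this.trans h.2.symm)
    exact T.ne hab.symm

end Cfsg.Agent.H10
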