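import Cfsg.Agent.H10.M12Cover
import Cfsg.Agent.H10.M12Action
import Cfsg.Agent.H10.TwoPointStem
import Cfsg.Agent.H10.M11Mult
import Cfsg.Agent.H13.Actions

/-!
The Schur multiplier of M12 is cyclic of order 2.
-/

set_option autoImplicit false

namespace Cfsg.Agent.H10

open Cfsg MulAction Cfsg.Agent.H13 Cfsg.Agent.H13.Data M12Data
open scoped commutatorElement

theorem sideHom_square_smul (g : Spor.M12) (x : {p : GolayPt // p ∈ Spor.squareDodecad}) :
    (sideHom isM12Side_square g • x : {p : GolayPt // p ∈ Spor.squareDodecad}).1 =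
      (g : Equiv.Perm GolayPt) x.1 := rfl

/-- M12 acting on its dodecad. -/
@[reducible] def dodAction : MulAction Spor.M12 {p : GolayPt // p ∈ Spor.squareDodecad} :=
  MulAction.compHom _ (sideHom isM12Side_square)

attribute [local instance] dodAction

/-- A table as an element of M12. -/
theorem exists_M12_elem {a : PL} (ha : validB 24 a = true)
    (hs : sift 24 (chain 24 m12Levels g12) a.1 = true) :
    ∃ g : Spor.M12, img (toFin (g : Equiv.Perm GolayPt)) = a.1 ∧
      img (toFin (g : Equiv.Perm GolayPt)⁻¹) = a.2 := by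
  obtain ⟨σ, -, rfl⟩ := valid_of_validB ha
  refine ⟨⟨toFin.symm σ, ?_⟩, congrArg img (toFin.apply_symm_apply σ), ?_⟩
  · rw [M12_eq]
    exact mem_grp_of_sift m12Levels g12_valid m12_check _ (by rwa [toFin.apply_symm_apply])
  · show img (toFin (toFin.symm σ)⁻¹) = _
    rw [map_inv, toFin.apply_symm_apply]

theorem idx_apply {g : Equiv.Perm GolayPt} {l : List ℕ} (h : img (toFin g) = l) {i j : ℕ}
    (hi : i < 24) (hj : l.getD i 0 = j) : g (Cfsg.Agent.H12.pt i) = Cfsg.Agent.H12.pt j := by
  rw [← hj, ← h, show (img (toFin g)).getD i 0 = _ from img_getD (toFin g) ⟨i, hi⟩, toFin_apply,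
    Cfsg.Agent.H12.pt_idx]

theorem zero_mem_sq : (some 0 : GolayPt) ∈ Spor.squareDodecad := by decide +kernel

theorem one_mem_sq : (some 1 : GolayPt) ∈ Spor.squareDodecad := by decide +kernel

/-- The base points. -/
def dodA : {p : GolayPt // p ∈ Spor.squareDodecad} := ⟨some 0, zero_mem_sq⟩

/-- The base points. -/
def dodB : {p : GolayPt // p ∈ Spor.squareDodecad} := ⟨some 1, one_mem_sq⟩

theorem stabilizer_dodA :
    stabilizer Spor.M12 dodA = Spor.M11.subgroupOf Spor.M12 := by
  ext g
  rw [mem_stabilizer_iff, Subtype.ext_iff, Subgroup.mem_subgroupOf]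
  exact ⟨fun h => ⟨g.2, h⟩, fun h => h.2⟩

/-- The stabiliser of the first base point is M11. -/
noncomputable def stabEquivM11 : stabilizer Spor.M12 dodA ≃* Spor.M11 :=
  (MulEquiv.subgroupCongr stabilizer_dodA).trans
    (Subgroup.subgroupOfEquivOfLe fun _ h => h.1)

theorem card_twoPoint : Nat.card ↥(stabilizer Spor.M12 dodA ⊓ stabilizer Spor.M12 dodB) ≤ 720 := by
  classical
  obtain ⟨O, hbO, hO, hreach, hcard⟩ := exists_orbitFinset Spor.M11 (some 1)
  have hc : Nat.card Spor.M11 = 7920 := by rw [M11_eq, card_g11]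
  have hsub : Spor.squareDodecad.erase (some 0) ⊆ O := by
    intro x hx
    obtain ⟨hx0, hxd⟩ := Finset.mem_erase.1 hx
    obtain ⟨e, he⟩ : ∃ e : Fin 5 ↪ GolayPt, (∀ i, e i ∈ Spor.squareDodecad) ∧
        e 0 = some 0 ∧ e 1 = x := by
      obtain ⟨l, hl, hlc⟩ := Finset.exists_subset_card_eq
        (show 3 ≤ (Spor.squareDodecad \ {some 0, x}).card by
          rw [Finset.card_sdiff_of_subset (Finset.insert_subset zero_mem_sq
            (Finset.singleton_subset_iff.2 hxd)), Finset.card_pair hx0.symm,
            isM12Side_square.card]; decide)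
      let f := (l.equivFinOfCardEq hlc).symm
      have hf : ∀ i, (f i : GolayPt) ∈ Spor.squareDodecad ∧ (f i : GolayPt) ≠ some 0 ∧
          (f i : GolayPt) ≠ x := fun i => by
        have := hl (f i).2
        simp only [Finset.mem_sdiff, Finset.mem_insert, Finset.mem_singleton, not_or] at this
        exact this
      refine ⟨⟨![some 0, x, f 0, f 1, f 2], ?_⟩, ?_, rfl, rfl⟩
      · have hff : ∀ i j, (f i : GolayPt) = f j → i = j := fun i j h =>
          f.injective (Subtype.ext h)
        intro i j hij
        fin_cases i <;> fin_cases j <;>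
          simp_all [(hf _).2.1, (hf _).2.2, (hf _).2.1.symm, (hf _).2.2.symm, hx0.symm] <;>
          exact absurd (hff _ _ hij) (by decide)
      · intro i
        fin_cases i
        exacts [zero_mem_sq, hxd, (hf 0).1, (hf 1).1, (hf 2).1]
    obtain ⟨e', he'⟩ : ∃ e' : Fin 5 ↪ GolayPt, (∀ i, e' i ∈ Spor.squareDodecad) ∧
        e' 0 = some 0 ∧ e' 1 = some 1 := by
      refine ⟨⟨![some 0, some 1, some 2, some 3, some 4], by decide +kernel⟩, ?_, rfl, rfl⟩
      decide +kernel
    obtain ⟨g, hg, hge⟩ := m12_map_tuple e' e he'.1 he.1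
    have g0 := hge 0
    have g1 := hge 1
    rw [he'.2.1, he.2.1] at g0
    rw [he'.2.2, he.2.2] at g1
    rw [← g1]
    exact (hO g ⟨M12_eq ▸ hg, g0⟩ (some 1)).2 hbO
  have hle := Finset.card_le_card hsub
  rw [Finset.card_erase_of_mem zero_mem_sq, isM12Side_square.card] at hle
  rw [hc] at hcard
  have hD : Nat.card ↥(stabilizer Spor.M12 dodA ⊓ stabilizer Spor.M12 dodB) ≤
      Nat.card ↥(Spor.M11 ⊓ stabilizer (Equiv.Perm GolayPt) (some 1 : GolayPt)) := by
    refine Nat.card_le_card_of_injective (fun g => ⟨(g.1.1 : Equiv.Perm GolayPt),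
      ⟨g.1.2, congrArg Subtype.val g.2.1⟩, congrArg Subtype.val g.2.2⟩) fun g g' h => ?_
    exact Subtype.ext (Subtype.ext (congrArg Subtype.val h :))
  nlinarith

/-- The kernel of a stem extension of M12 has at most two elements. -/
theorem M12_stem_bound {Γ : Type} [Group Γ] [Finite Γ] {σ : Γ →* Spor.M12}
    (hσ : Cfsg.IsStemExtension σ) : Nat.card σ.ker ≤ 2 := by
  classical
  have hv : ∀ i : Fin 3, validB 24 (configElems.getD i (oneP 24)) = true := by decide +kernel
  have hs : ∀ i : Fin 3, sift 24 (chain 24 m12Levels g12) (configElems.getD i (oneP 24)).1 = true := by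
    decide +kernel
  choose c hc hci using fun i => exists_M12_elem (hv i) (hs i)
  obtain ⟨g, hg⟩ : ∃ g, g = c 2 := ⟨_, rfl⟩
  have et := hc 0
  have eh := hc 1
  have eg := hc 2
  have egi := hci 2
  rw [← hg] at eg egi
  have ext12 : ∀ {g h : Spor.M12}, img (toFin (g : Equiv.Perm GolayPt)) =
      img (toFin (h : Equiv.Perm GolayPt)) → g = h :=
    fun e => Subtype.ext (toFin.injective (img_injective e))
  have sm : ∀ (g : Spor.M12) (x : {p : GolayPt // p ∈ Spor.squareDodecad}),
      (g • x).1 = (g : Equiv.Perm GolayPt) x.1 := fun g x => rfl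
  have mp : ∀ {g : Spor.M12} {l : List ℕ}, img (toFin (g : Equiv.Perm GolayPt)) = l →
      ∀ {i j : ℕ} (x y : {p : GolayPt // p ∈ Spor.squareDodecad}), x.1 = Cfsg.Agent.H12.pt i →
        y.1 = Cfsg.Agent.H12.pt j → i < 24 → l.getD i 0 = j → g • x = y := by
    intro g l e i j x y hx hy hi hj
    exact Subtype.ext (by rw [sm, hx, hy]; exact idx_apply e hi hj)
  have mul12 : ∀ g h : Spor.M12, img (toFin ((g * h : Spor.M12) : Equiv.Perm GolayPt)) =
      mulL (img (toFin (g : Equiv.Perm GolayPt))) (img (toFin (h : Equiv.Perm GolayPt))) :=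
    fun g h => by rw [Subgroup.coe_mul, map_mul, mulL_img]
  have one12 : img (toFin ((1 : Spor.M12) : Equiv.Perm GolayPt)) = List.range 24 := by
    rw [Subgroup.coe_one, map_one, img_one]
  have inv12 : img (toFin ((g⁻¹ : Spor.M12) : Equiv.Perm GolayPt)) =
      (configElems.getD 2 (oneP 24)).2 := egi
  let cpt : {p : GolayPt // p ∈ Spor.squareDodecad} := ⟨some 2, by decide +kernel⟩
  have hd : ∀ x : {p : GolayPt // p ∈ Spor.squareDodecad}, x ≠ dodA → x ≠ dodB →
      ∃ d : Spor.M12, d • dodA = dodA ∧ d • dodB = dodB ∧ d • cpt = x := by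
    intro x hxa hxb
    haveI := s12_aut_transitive isM12Side_square.card_subtype
      (H13.hexads_steiner isM12Side_square.mem)
    haveI : IsMultiplyPretransitive (setSystemAut (hexOn Spor.squareDodecad))
        {p : GolayPt // p ∈ Spor.squareDodecad} 3 :=
      isMultiplyPretransitive_of_le (n := 5) (by decide) (by simp [isM12Side_square.card])
    obtain ⟨w, hw⟩ := exists_smul_eq (setSystemAut (hexOn Spor.squareDodecad))
      (⟨![dodA, dodB, cpt], by decide +kernel⟩ : Fin 3 ↪ {p : GolayPt // p ∈ Spor.squareDodecad})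
      ⟨![dodA, dodB, x], fun i j h => by
        have hab : dodA ≠ dodB := by decide +kernel
        fin_cases i <;> fin_cases j <;>
          simp_all [Ne.symm hxa, Ne.symm hxb, hab, hab.symm]⟩
    refine ⟨(sideEquiv isM12Side_square).symm w, ?_, ?_, ?_⟩ <;>
      refine Subtype.ext ?_ <;>
      rw [sm, ← sideEquiv_apply isM12Side_square, MulEquiv.apply_symm_apply]
    · exact congrArg Subtype.val (congrArg (fun e : Fin 3 ↪ _ => e 0) hw)
    · exact congrArg Subtype.val (congrArg (fun e : Fin 3 ↪ _ => e 1) hw)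
    · exact congrArg Subtype.val (congrArg (fun e : Fin 3 ↪ _ => e 2) hw)
  have hh₀b : c 1 • dodB = cpt :=
    mp eh (i := 1) (j := 2) dodB cpt rfl rfl (by decide) (by decide +kernel)
  let T : ThreePointData Spor.M12 {p : GolayPt // p ∈ Spor.squareDodecad} :=
    { a := dodA
      b := dodB
      t := c 0
      h₀ := c 1
      ne := by decide +kernel
      ta := mp et (i := 0) (j := 1) dodA dodB rfl rfl (by decide) (by decide +kernel)
      tb := mp et (i := 1) (j := 0) dodB dodA rfl rfl (by decide) (by decide +kernel)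
      ha := mp eh (i := 0) (j := 0) dodA dodA rfl rfl (by decide) (by decide +kernel)
      tt := ext12 (by simp only [mul12, one12, et]; decide +kernel)
      hh := ext12 (by simp only [mul12, one12, eh]; decide +kernel)
      th3 := ext12 (by
        rw [pow_three]
        simp only [mul12, one12, et, eh]
        decide +kernel)
      tconj := ⟨g, mp (l := mulL (mulL (configElems.getD 2 (oneP 24)).2
          (configElems.getD 0 (oneP 24)).1) (configElems.getD 2 (oneP 24)).1)
        (by simp only [mul12, inv12, et, eg]; rfl) (i := 0) (j := 0) dodA dodA rfl rfl (by decide)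
        (by decide +kernel)⟩
      trans := by
        intro x hx
        by_cases hxb : x = dodB
        · exact ⟨1, one_smul _ _, by rw [one_smul, hxb]⟩
        · obtain ⟨d, hda, hdb, hdc⟩ := hd x hx hxb
          refine ⟨d * c 1, ?_, ?_⟩
          · rw [mul_smul, show c 1 • dodA = dodA from
              mp eh (i := 0) (j := 0) dodA dodA rfl rfl (by decide) (by decide +kernel), hda]
          · rw [mul_smul, hh₀b, hdc]
      trans₂ := by
        intro x hxa hxb
        obtain ⟨d, hda, hdb, hdc⟩ := hd x hxa hxb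
        exact ⟨d, hda, hdb, by rw [hh₀b, hdc]⟩ }
  have hperf : commutator (stabilizer Spor.M12 T.a) = ⊤ := by
    show commutator (stabilizer Spor.M12 dodA) = ⊤
    have : IsSimpleGroup Spor.M11 := by rw [M11_eq]; exact g11_simple
    have := stabEquivM11.isSimpleGroup
    rcases (inferInstance : (commutator (stabilizer Spor.M12 dodA)).Normal).eq_bot_or_eq_top with
      h | h
    · exfalso
      have hc : ∀ x y : stabilizer Spor.M12 dodA, x * y = y * x := fun x y => by
        rw [← commutatorElement_eq_one_iff_mul_comm, ← Subgroup.mem_bot, ← h, commutator_def]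
        exact Subgroup.commutator_mem_commutator (Subgroup.mem_top x) (Subgroup.mem_top y)
      have : IsMulCommutative Spor.M11 := ⟨⟨fun a b => stabEquivM11.symm.injective (by
        rw [map_mul, map_mul]; exact hc _ _)⟩⟩
      let i : CommGroup Spor.M11 :=
        { (inferInstance : Group Spor.M11) with mul_comm := this.is_comm.comm }
      have hp := (inferInstance : IsSimpleGroup Spor.M11)
      have := @IsSimpleGroup.prime_card Spor.M11 i hp
      rw [M11_eq, card_g11] at this
      revert this
      norm_num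
    · exact h
  have hM : Cfsg.HasCyclicSchurMultiplier (stabilizer Spor.M12 T.a) 1 :=
    H82.HasSchurMultiplier.of_mulEquiv mult_M11 stabEquivM11.symm
  obtain ⟨δ, hδ⟩ := exists_delta T hperf hM hσ
  -- generators of the two-point stabiliser
  have hv2 : ∀ i : Fin 2, validB 24 (twoPointGens.getD i (oneP 24)) = true := by decide +kernel
  have hs2 : ∀ i : Fin 2,
      sift 24 (chain 24 m12Levels g12) (twoPointGens.getD i (oneP 24)).1 = true := by decide +kernel
  have hv4 : ∀ i : Fin 4, validB 24 (commElems.getD i (oneP 24)) = true := by decide +kernel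
  have hs4 : ∀ i : Fin 4,
      sift 24 (chain 24 m12Levels g12) (commElems.getD i (oneP 24)).1 = true := by decide +kernel
  choose u hu hui using fun i => exists_M12_elem (hv2 i) (hs2 i)
  choose w hw hwi using fun i => exists_M12_elem (hv4 i) (hs4 i)
  let D := stabilizer Spor.M12 T.a ⊓ stabilizer Spor.M12 T.b
  have huD : ∀ i : Fin 2, u i ∈ D := fun i => by
    have h0 : ∀ i : Fin 2, ((twoPointGens.getD i (oneP 24)).1.getD 0 0 = 0 ∧
        (twoPointGens.getD i (oneP 24)).1.getD 1 0 = 1) := by decide +kernel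
    exact ⟨mp (hu i) (i := 0) (j := 0) dodA dodA rfl rfl (by decide) (h0 i).1,
      mp (hu i) (i := 1) (j := 1) dodB dodB rfl rfl (by decide) (h0 i).2⟩
  have hwD : ∀ i : Fin 4, w i ∈ D := fun i => by
    have h0 : ∀ i : Fin 4, ((commElems.getD i (oneP 24)).1.getD 0 0 = 0 ∧
        (commElems.getD i (oneP 24)).1.getD 1 0 = 1) := by decide +kernel
    exact ⟨mp (hw i) (i := 0) (j := 0) dodA dodA rfl rfl (by decide) (h0 i).1,
      mp (hw i) (i := 1) (j := 1) dodB dodB rfl rfl (by decide) (h0 i).2⟩
  let uD : Fin 2 → D := fun i => ⟨u i, huD i⟩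
  let wD : Fin 4 → D := fun i => ⟨w i, hwD i⟩
  have winv : ∀ i, img (toFin (((w i)⁻¹ : Spor.M12) : Equiv.Perm GolayPt)) =
      (commElems.getD i (oneP 24)).2 := hwi
  have e1 : uD 0 = ⁅wD 0, wD 1⁆ := Subtype.ext (ext12 (by
    show img (toFin (u 0 : Equiv.Perm GolayPt)) =
      img (toFin ((w 0 * w 1 * (w 0)⁻¹ * (w 1)⁻¹ : Spor.M12) : Equiv.Perm GolayPt))
    simp only [mul12, hu, hw, winv]
    decide +kernel))
  have e2 : uD 1 * uD 1 = ⁅wD 2, wD 3⁆ := Subtype.ext (ext12 (by
    show img (toFin ((u 1 * u 1 : Spor.M12) : Equiv.Perm GolayPt)) =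
      img (toFin ((w 2 * w 3 * (w 2)⁻¹ * (w 3)⁻¹ : Spor.M12) : Equiv.Perm GolayPt))
    simp only [mul12, hu, hw, winv]
    decide +kernel))
  have hgen : Subgroup.closure {uD 0, uD 1} = ⊤ := by
    have hv2' : twoPointGens.all (validB 24) = true := by decide +kernel
    have hchk : check 24 twoPointLevels twoPointGens = true := by decide +kernel
    have hcard : Nat.card (grp twoPointGens) = 720 := by
      rw [card_grp _ hv2' hchk]; decide +kernel
    let ι : D →* Equiv.Perm GolayPt := (Spor.M12.subtype).comp D.subtype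
    have hle : grp twoPointGens ≤ (Subgroup.closure {uD 0, uD 1}).map ι := by
      refine grp_le hv2' fun a ha k hk => ?_
      have hidx : ∀ a ∈ twoPointGens, a = twoPointGens.getD 0 (oneP 24) ∨
          a = twoPointGens.getD 1 (oneP 24) := by decide +kernel
      rcases hidx a ha with e | e
      · exact ⟨uD 0, Subgroup.subset_closure (Or.inl rfl), toFin.injective (img_injective
          ((hu 0).trans ((congrArg Prod.fst e).symm.trans hk.symm)))⟩
      · exact ⟨uD 1, Subgroup.subset_closure (Or.inr rfl), toFin.injective (img_injective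
          ((hu 1).trans ((congrArg Prod.fst e).symm.trans hk.symm)))⟩
    have hι : Function.Injective ι := Subtype.val_injective.comp Subtype.val_injective
    haveI : Finite D := Finite.of_injective ι hι
    refine Subgroup.eq_top_of_le_card _ ?_
    have hcm : Nat.card ((Subgroup.closure {uD 0, uD 1}).map ι) =
        Nat.card (Subgroup.closure {uD 0, uD 1}) := Subgroup.card_map_of_injective hι
    rw [← hcm]
    refine card_twoPoint.trans ?_
    rw [← hcard]
    exact Subgroup.card_le_of_le hle
  have hcomm : ∀ p q : D, δ ⁅p, q⁆ = 1 := fun p q => by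
    rw [map_commutatorElement, commutatorElement_eq_one_iff_mul_comm]
    exact Subtype.ext (Subgroup.mem_center_iff.1 (hσ.2.1 (δ q).2) (δ p : Γ))
  have hz : ∀ z : σ.ker, z ∈ Subgroup.zpowers (δ (uD 1)) := by
    intro z
    obtain ⟨d, rfl⟩ := hδ z
    have hd : d ∈ Subgroup.closure {uD 0, uD 1} := hgen ▸ Subgroup.mem_top d
    have hmap := Subgroup.mem_map_of_mem δ hd
    rw [MonoidHom.map_closure, Set.image_pair, e1, hcomm] at hmap
    refine (Subgroup.closure_le (K := Subgroup.zpowers (δ (uD 1)))).2 ?_ hmap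
    rintro v (rfl | rfl)
    · exact one_mem _
    · exact Subgroup.mem_zpowers _
  have hsq : δ (uD 1) ^ 2 = 1 := by rw [pow_two, ← map_mul, e2, hcomm]
  rw [← Subgroup.card_top (G := σ.ker),
    ← (Subgroup.eq_top_iff' _).2 hz, Nat.card_zpowers]
  exact orderOf_le_of_pow_eq_one (by decide) hsq

/-- The Schur multiplier of M12 has order two. -/
theorem mult_M12 : Cfsg.HasCyclicSchurMultiplier ↥Spor.M12 2 := by
  haveI : Finite coverGroup := Nat.finite_of_card_ne_zero (by rw [card_coverGroup]; decide)
  haveI : Fact (Nat.Prime 2) := ⟨by norm_num⟩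
  exact H82.hasCyclicSchurMultiplier_of_card coverHom_isStem (isCyclic_of_prime_card card_coverHom_ker)
    card_coverHom_ker fun Δ _ _ τ hτ => M12_stem_bound hτ

end Cfsg.Agent.H10
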