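import Mathlib

/-!
Collection of words in involutions of a central extension, keeping track of unknown central signs
as bit masks.
-/

set_option autoImplicit false

namespace Cfsg.Agent.H10.SignCollect

open scoped IsMulCommutative

/-- One rewriting step at the first possible position. -/
def step (rel : ℕ → ℕ → List ℕ) (idx : ℕ → ℕ → ℕ) : List ℕ → Option (List ℕ × ℕ)
  | [] => none
  | [_] => none
  | a :: b :: t =>
    if a = b then some (t, 0)
    else if b < a then some (b :: (rel b a ++ t), 2 ^ idx b a)
    else (step rel idx (b :: t)).map fun r => (a :: r.1, r.2)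

/-- Repeated rewriting. -/
def collect (rel : ℕ → ℕ → List ℕ) (idx : ℕ → ℕ → ℕ) : ℕ → List ℕ → List ℕ × ℕ
  | 0, w => (w, 0)
  | f + 1, w =>
    match step rel idx w with
    | none => (w, 0)
    | some r => ((collect rel idx f r.1).1, r.2 ^^^ (collect rel idx f r.1).2)

variable {Γ : Type*} [Group Γ]

/-- Evaluation of a word. -/
def eval (e : ℕ → Γ) (w : List ℕ) : Γ := (w.map e).prod

/-- The central element of a mask. -/
def val (N : ℕ) (c : ℕ → Subgroup.center Γ) (v : ℕ) : Subgroup.center Γ :=
  ∏ p ∈ Finset.range N, if v.testBit p then c p else 1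

theorem val_zero (N : ℕ) (c : ℕ → Subgroup.center Γ) : val N c 0 = 1 := by
  simp [val]

theorem val_xor {N : ℕ} {c : ℕ → Subgroup.center Γ} (hc : ∀ p, c p * c p = 1) (v w : ℕ) :
    val N c (v ^^^ w) = val N c v * val N c w := by
  rw [val, val, val, ← Finset.prod_mul_distrib]
  refine Finset.prod_congr rfl fun p _ => ?_
  rw [Nat.testBit_xor]
  cases v.testBit p <;> cases w.testBit p <;> simp [hc]

theorem val_two_pow (N : ℕ) (c : ℕ → Subgroup.center Γ) (q : ℕ) :
    val N c (2 ^ q) = if q < N then c q else 1 := by
  simp [val, Nat.testBit_two_pow, Finset.prod_ite_eq]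

theorem eval_append (e : ℕ → Γ) (v w : List ℕ) : eval e (v ++ w) = eval e v * eval e w := by
  simp [eval]

theorem eval_cons (e : ℕ → Γ) (a : ℕ) (w : List ℕ) : eval e (a :: w) = e a * eval e w := by
  simp [eval]

theorem eval_nil (e : ℕ → Γ) : eval e [] = 1 := rfl

theorem comm_center (z : Subgroup.center Γ) (x : Γ) : x * z = z * x :=
  Subgroup.mem_center_iff.1 z.2 x

variable {rel : ℕ → ℕ → List ℕ} {idx : ℕ → ℕ → ℕ} {N : ℕ} {e : ℕ → Γ}
  {c : ℕ → Subgroup.center Γ}

theorem eval_step (h2 : ∀ i, e i * e i = 1)
    (hrel : ∀ b a, b < a → e a * e b = e b * eval e (rel b a) * (val N c (2 ^ idx b a) : Γ)) :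
    ∀ {w : List ℕ} {r : List ℕ × ℕ}, step rel idx w = some r →
      eval e w = eval e r.1 * (val N c r.2 : Γ)
  | [], _, h => by simp [step] at h
  | [_], _, h => by simp [step] at h
  | a :: b :: t, r, h => by
    rw [step] at h
    split_ifs at h with h1 h1'
    · obtain rfl : (t, 0) = r := Option.some.inj h
      rw [h1, eval_cons, eval_cons, ← mul_assoc, h2, one_mul, val_zero]
      simp
    · obtain rfl := Option.some.inj h
      rw [eval_cons, eval_cons, ← mul_assoc, hrel b a h1', eval_cons, eval_append, mul_assoc _ _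
        (eval e t), ← comm_center]
      group
    · obtain ⟨r', hr', rfl⟩ := Option.map_eq_some_iff.1 h
      rw [eval_cons, eval_step h2 hrel hr', eval_cons, mul_assoc]

/-- Collection does not change the value. -/
theorem eval_collect (hc : ∀ p, c p * c p = 1) (h2 : ∀ i, e i * e i = 1)
    (hrel : ∀ b a, b < a → e a * e b = e b * eval e (rel b a) * (val N c (2 ^ idx b a) : Γ)) :
    ∀ (f : ℕ) (w : List ℕ),
      eval e w = eval e (collect rel idx f w).1 * (val N c (collect rel idx f w).2 : Γ)
  | 0, w => by simp [collect, val_zero]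
  | f + 1, w => by
    rw [collect]
    cases hs : step rel idx w with
    | none => simp [val_zero]
    | some r =>
      simp only
      rw [eval_step h2 hrel hs, eval_collect hc h2 hrel f r.1, val_xor hc, mul_assoc,
        Subgroup.coe_mul, comm_center (val N c r.2)]

end Cfsg.Agent.H10.SignCollect
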