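import Cfsg.Agent.H10.M23Data
import Cfsg.Agent.H10.SignCollect
import Cfsg.Agent.H10.StemCriteria
import Cfsg.Agent.H10.M11Mult
import Cfsg.Agent.H13.Groups

/-!
The Schur multiplier of M23 is trivial.
-/

set_option autoImplicit false

namespace Cfsg.Agent.H10

open Cfsg Cfsg.Agent.H13 Cfsg.Agent.H13.Data M23Data
open scoped commutatorElement IsMulCommutative

/-- The relation words of the Sylow subgroup as a function. -/
def rel23 (b a : ℕ) : List ℕ :=
  ((relWords.find? fun r => r.1 == b && r.2.1 == a).map fun r => r.2.2).getD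
    (if a < 7 then [a] else [])

/-- The position of a relation. -/
def idx23 (b a : ℕ) : ℕ :=
  relWords.findIdx fun r => r.1 == b && r.2.1 == a

/-- Collection of words with the first lifts. -/
def coll23 (w : List ℕ) : List ℕ × ℕ := SignCollect.collect rel23 idx23 40 w

/-- The masks of the equations satisfied by the signs. -/
def eqMasks : List ℕ :=
  powWords.map (fun q => (coll23 (q.1 ++ q.1)).2) ++
  consWords.map (fun w => (coll23 w).2 ^^^
    ((coll23 w.tail).2 ^^^ (coll23 (w.headD 0 :: (coll23 w.tail).1)).2)) ++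
  [(coll23 (fusWords.1 ++ fusWords.2.1)).2 ^^^ (coll23 (fusWords.2.1 ++ fusWords.1)).2 ^^^
    ((coll23 (fusWords.2.2.1 ++ fusWords.2.2.2)).2 ^^^
      (coll23 (fusWords.2.2.2 ++ fusWords.2.2.1)).2)]

/-- Exclusive or of a list. -/
def xorAll (l : List ℕ) : ℕ := l.foldr (· ^^^ ·) 0

/-- The table of a word in the generators. -/
def wordTab (w : List ℕ) : PL :=
  w.foldr (fun i acc => mulP (sylGens.getD i (oneP 24)) acc) (oneP 24)

/-- A stem extension of M23 with kernel of exponent two is trivial. -/
theorem M23_two_trivial {Γ : Type} [Group Γ] [Finite Γ] {σ : Γ →* grp g23}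
    (hσ : Cfsg.IsStemExtension σ) (hexp : ∀ z ∈ σ.ker, z * z = 1) :
    ¬ 2 ∣ Nat.card σ.ker := by
  classical
  haveI : Finite (grp g23) := Nat.finite_of_card_ne_zero (by rw [card_g23]; decide)
  haveI : Fact (Nat.Prime 2) := ⟨by norm_num⟩
  have elem : ∀ {l : List PL}, l.all (validB 24) = true →
      (l.all fun a => sift 24 (chain 24 m23Levels g23) a.1) = true →
      ∀ i : ℕ, ∃ g : grp g23, img (toFin g) = (l.getD i (oneP 24)).1 ∧
        img (toFin (g⁻¹ : grp g23)) = (l.getD i (oneP 24)).2 := by
    intro l h1 h2 i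
    by_cases hi : i < l.length
    · have hmem : l.getD i (oneP 24) ∈ l := by
        rw [List.getD_eq_getElem?_getD, List.getElem?_eq_getElem hi]
        exact List.getElem_mem hi
      obtain ⟨τ, -, hτ⟩ := valid_of_validB (List.all_eq_true.1 h1 _ hmem)
      have hs := List.all_eq_true.1 h2 _ hmem
      simp only [hτ] at hs ⊢
      refine ⟨⟨toFin.symm τ, mem_grp_of_sift m23Levels g23_valid m23_check _
        (by rwa [toFin.apply_symm_apply])⟩, ?_, ?_⟩
      · rw [toFin.apply_symm_apply]
      · rw [Subgroup.coe_inv, map_inv, toFin.apply_symm_apply]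
    · refine ⟨1, ?_, ?_⟩ <;>
        simp [List.getD_eq_getElem?_getD, List.getElem?_eq_none (Nat.le_of_not_lt hi),
          img_one, oneP]
  choose E hE hEi using elem (l := sylGens) (by decide +kernel) (by decide +kernel)
  choose C hC hCi using elem (l := conjElems) (by decide +kernel) (by decide +kernel)
  choose K hK hKi using elem (l := klein) (by decide +kernel) (by decide +kernel)
  choose KC hKC hKCi using elem (l := kleinConj) (by decide +kernel) (by decide +kernel)
  choose F hF hFi using elem (l := fusElem) (by decide +kernel) (by decide +kernel)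
  have cen : ∀ z ∈ σ.ker, ∀ w : Γ, w * z = z * w :=
    fun z hz w => Subgroup.mem_center_iff.1 (hσ.2.1 hz) w
  have hker : ∀ {u : Γ}, σ u = 1 → u ∈ σ.ker := fun h => MonoidHom.mem_ker.2 h
  -- squares of the lifts of the involutions
  obtain ⟨x₀, hx₀⟩ : ∃ x, x = E 6 := ⟨_, rfl⟩
  obtain ⟨lx, hlx⟩ := hσ.1 x₀
  have hx2 : x₀ * x₀ = 1 := grp_ext (by
    simp only [img_grp_mul, img_grp_one, hx₀, hE]; decide +kernel)
  obtain ⟨c₀, hc₀⟩ : ∃ c, c = lx * lx := ⟨_, rfl⟩
  have hc₀k : c₀ ∈ σ.ker := hker (by rw [hc₀, map_mul, hlx, hx2])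
  have sq : ∀ (y : Γ) (g : grp g23), g * σ y * g⁻¹ = x₀ → y * y = c₀ := by
    intro y g hg
    obtain ⟨γ, rfl⟩ := hσ.1 g
    have hzk : lx⁻¹ * (γ * y * γ⁻¹) ∈ σ.ker := hker (by
      rw [map_mul, map_mul, map_mul, map_inv, map_inv, hg, hlx, inv_mul_cancel])
    obtain ⟨z, hz, e⟩ : ∃ z ∈ σ.ker, γ * y * γ⁻¹ = lx * z :=
      ⟨_, hzk, (mul_inv_cancel_left _ _).symm⟩
    have hyy : σ (y * y) = 1 := by
      rw [map_mul, show σ y = (σ γ)⁻¹ * x₀ * σ γ by rw [← hg]; group,
        show (σ γ)⁻¹ * x₀ * σ γ * ((σ γ)⁻¹ * x₀ * σ γ) = (σ γ)⁻¹ * (x₀ * x₀) * σ γ by group, hx2]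
      group
    calc y * y = γ * (y * y) * γ⁻¹ := by rw [cen _ (hker hyy) γ, mul_inv_cancel_right]
      _ = (γ * y * γ⁻¹) * (γ * y * γ⁻¹) := by group
      _ = lx * (z * lx) * z := by rw [e]; group
      _ = lx * lx * (z * z) := by rw [← cen z hz lx]; group
      _ = c₀ := by rw [hexp z hz, mul_one, hc₀]
  have hc₀1 : c₀ = 1 := by
    obtain ⟨u, hu⟩ := hσ.1 (K 0)
    obtain ⟨v, hv⟩ := hσ.1 (K 1)
    obtain ⟨w, hw⟩ := hσ.1 (K 2)
    have hconj : ∀ i : Fin 7, KC i * K i * (KC i)⁻¹ = x₀ := fun i => grp_ext (by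
      simp only [img_grp_mul, hx₀, hE, hK, hKC, hKCi]
      revert i
      decide +kernel)
    have sq' : ∀ (i : Fin 7) (y : Γ), σ y = K i → y * y = c₀ :=
      fun i y hy => sq y (KC i) (by rw [hy]; exact hconj i)
    have huv : σ (u * v) = K 3 := by
      rw [map_mul, hu, hv]
      exact grp_ext (by simp only [img_grp_mul, hK]; decide +kernel)
    have huw : σ (u * w) = K 4 := by
      rw [map_mul, hu, hw]
      exact grp_ext (by simp only [img_grp_mul, hK]; decide +kernel)
    have hvw : σ (v * w) = K 5 := by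
      rw [map_mul, hv, hw]
      exact grp_ext (by simp only [img_grp_mul, hK]; decide +kernel)
    have huvw : σ (u * (v * w)) = K 6 := by
      rw [map_mul, map_mul, hu, hv, hw]
      exact grp_ext (by simp only [img_grp_mul, hK]; decide +kernel)
    have hci : c₀⁻¹ = c₀ := inv_eq_of_mul_eq_one_right (hexp _ hc₀k)
    have comm : ∀ x y : Γ, x * x = c₀ → y * y = c₀ → x * y * (x * y) = c₀ →
        x * y = y * x * c₀ := by
      intro x y hx hy hxy
      have h2 : x * y * (x * y) * (y * x) = c₀ * (y * x) := by rw [hxy]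
      rw [show x * y * (x * y) * (y * x) = x * y * (x * (y * y) * x) by group, hy,
        cen c₀ hc₀k x, mul_assoc c₀, hx, hexp _ hc₀k, mul_one] at h2
      rw [h2, cen c₀ hc₀k (y * x)]
    have h1 := comm u v (sq' 0 u hu) (sq' 1 v hv) (sq' 3 _ huv)
    have h2 := comm u w (sq' 0 u hu) (sq' 2 w hw) (sq' 4 _ huw)
    have h3 := comm u (v * w) (sq' 0 u hu) (sq' 5 _ hvw) (sq' 6 _ huvw)
    have e : u * (v * w) = v * w * u := by
      calc u * (v * w) = (u * v) * w := (mul_assoc _ _ _).symm
        _ = v * u * (c₀ * w) := by rw [h1]; group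
        _ = v * (u * w) * c₀ := by rw [← cen c₀ hc₀k w]; group
        _ = v * (w * u) * (c₀ * c₀) := by rw [h2]; group
        _ = _ := by rw [hexp _ hc₀k, mul_one, mul_assoc]
    rw [e] at h3
    exact mul_eq_left.1 h3.symm
  -- lifts of the generators
  have sq1 : ∀ (y : Γ) (g : grp g23), g * σ y * g⁻¹ = x₀ → y * y = 1 :=
    fun y g hg => (sq y g hg).trans hc₀1
  choose l₀ hl₀ using fun i => hσ.1 (E i)
  obtain ⟨e, he⟩ : ∃ e : ℕ → Γ, e = fun i => if i < 7 then l₀ i else 1 := ⟨_, rfl⟩
  have hσe : ∀ i, σ (e i) = E i := by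
    intro i
    rw [he]
    by_cases hi : i < 7
    · simp only [hi, if_true, hl₀]
    · simp only [hi, if_false, map_one]
      refine (grp_ext ?_).symm
      rw [img_grp_one, hE, List.getD_eq_getElem?_getD, List.getElem?_eq_none (Nat.le_of_not_lt hi)]
      rfl
  have he7 : ∀ i, 7 ≤ i → e i = 1 := fun i hi => by rw [he]; simp [Nat.not_lt.2 hi]
  have hword : ∀ w : List ℕ, img (toFin (σ (SignCollect.eval e w) : grp g23)) = (wordTab w).1 := by
    intro w
    induction w with
    | nil => rw [SignCollect.eval_nil, map_one, img_grp_one]; rfl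
    | cons i w ih =>
      rw [SignCollect.eval_cons, map_mul, img_grp_mul, hσe, hE, ih]
      rfl
  have e2 : ∀ i, e i * e i = 1 := by
    intro i
    by_cases hi : i < 7
    · refine sq1 _ (C i) ?_
      have key : ∀ i : Fin 7, C i * E i * (C i)⁻¹ = x₀ := fun i => grp_ext (by
        simp only [img_grp_mul, hx₀, hE, hC, hCi]
        revert i
        decide +kernel)
      rw [hσe]
      exact key ⟨i, hi⟩
    · rw [he7 i (Nat.le_of_not_lt hi), one_mul]
  -- the signs
  have hd : ∀ r ∈ relWords, (e r.1 * SignCollect.eval e r.2.2)⁻¹ * (e r.2.1 * e r.1) ∈ σ.ker := by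
    intro r hr
    refine hker ?_
    rw [map_mul, map_inv, inv_mul_eq_one]
    refine grp_ext ?_
    rw [show e r.1 * SignCollect.eval e r.2.2 = SignCollect.eval e (r.1 :: r.2.2) from
      (SignCollect.eval_cons e r.1 r.2.2).symm,
      show e r.2.1 * e r.1 = SignCollect.eval e [r.2.1, r.1] by simp [SignCollect.eval],
      hword, hword]
    revert r
    decide +kernel
  let c : ℕ → Subgroup.center Γ := fun p =>
    if h : p < relWords.length then ⟨_, hσ.2.1 (hd _ (List.getElem_mem h))⟩ else 1
  have hck : ∀ p, (c p : Γ) ∈ σ.ker := fun p => by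
    simp only [c]
    split
    · exact hd _ (List.getElem_mem _)
    · exact one_mem _
  have hc2 : ∀ p, c p * c p = 1 := fun p => Subtype.ext (hexp _ (hck p))
  have hc21 : ∀ p, 21 ≤ p → c p = 1 := fun p hp => by
    simp only [c]
    rw [dif_neg]
    exact Nat.not_lt.2 hp
  have hrel : ∀ b a, b < a → e a * e b =
      e b * SignCollect.eval e (rel23 b a) * (SignCollect.val 21 c (2 ^ idx23 b a) : Γ) := by
    intro b a hba
    rw [SignCollect.val_two_pow]
    by_cases ha : a < 7
    · have hfacts : ∀ a : Fin 7, ∀ b : Fin 7, b < a → ∃ h : idx23 b a < relWords.length,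
          relWords[idx23 b a].1 = b ∧ relWords[idx23 b a].2.1 = a ∧
          relWords[idx23 b a].2.2 = rel23 b a := by decide +kernel
      obtain ⟨h, hb', ha', hw⟩ := hfacts ⟨a, ha⟩ ⟨b, hba.trans ha⟩ hba
      simp only at hb' ha' hw h
      rw [if_pos (show idx23 b a < 21 from h)]
      simp only [c, dif_pos h, hb', ha', hw]
      rw [mul_inv_cancel_left]
    · have hnot : ∀ r ∈ relWords, r.2.1 < 7 := by decide +kernel
      have hne : ∀ r ∈ relWords, ¬ (r.1 == b && r.2.1 == a) = true := fun r hr h => by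
        simp only [Bool.and_eq_true, beq_iff_eq] at h
        exact ha (h.2 ▸ hnot r hr)
      have hrl : rel23 b a = [] := by
        rw [rel23, List.find?_eq_none.2 hne]
        simp [ha]
      have hix : ¬ idx23 b a < 21 := by
        rw [idx23, List.findIdx_eq_length_of_false (fun r hr => by simpa using hne r hr)]
        decide
      rw [hrl, if_neg hix, SignCollect.eval_nil, he7 a (Nat.le_of_not_lt ha)]
      simp
  have hcoll : ∀ w, SignCollect.eval e w = SignCollect.eval e (coll23 w).1 *
      (SignCollect.val 21 c (coll23 w).2 : Γ) :=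
    fun w => SignCollect.eval_collect hc2 e2 hrel 40 w
  have vinj : ∀ {x : Γ} {p q : Subgroup.center Γ}, x * (p : Γ) = x * (q : Γ) → p = q :=
    fun h => Subtype.ext (mul_left_cancel h)
  have vsq : ∀ v, SignCollect.val 21 c v * SignCollect.val 21 c v = 1 := fun v => by
    rw [← SignCollect.val_xor hc2, Nat.xor_self, SignCollect.val_zero]
  -- the equations
  have heq : ∀ m ∈ eqMasks, SignCollect.val 21 c m = 1 := by
    intro m hm
    rw [eqMasks, List.mem_append, List.mem_append] at hm
    rcases hm with (hm | hm) | hm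
    · obtain ⟨q, hq, rfl⟩ := List.mem_map.1 hm
      have hnf : ∀ q ∈ powWords, (coll23 (q.1 ++ q.1)).1 = [] := by decide +kernel
      have h := hcoll (q.1 ++ q.1)
      rw [hnf q hq, SignCollect.eval_nil, one_mul, SignCollect.eval_append] at h
      obtain ⟨i, hi, rfl⟩ : ∃ i, ∃ h : i < powWords.length, powWords[i] = q :=
        List.getElem_of_mem hq
      have e' : powWords.getD i ([], 0) = powWords[i] := by
        rw [List.getD_eq_getElem?_getD, List.getElem?_eq_getElem hi]; rfl
      have key : ∀ j : Fin 15,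
          C (7 + j) * σ (SignCollect.eval e (powWords.getD j ([], 0)).1) * (C (7 + j))⁻¹ = x₀ :=
        fun j => grp_ext (by
        simp only [img_grp_mul, hx₀, hE, hC, hCi, hword]
        revert j
        decide +kernel)
      rw [← e'] at h ⊢
      rw [sq1 _ _ (key ⟨i, hi⟩)] at h
      exact (Subtype.ext h).symm
    · obtain ⟨w, hw, rfl⟩ := List.mem_map.1 hm
      have hcons : ∀ w ∈ consWords, w = w.headD 0 :: w.tail ∧
          (coll23 (w.headD 0 :: (coll23 w.tail).1)).1 = (coll23 w).1 := by decide +kernel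
      obtain ⟨hw1, hw2⟩ := hcons w hw
      have h := hcoll w
      conv_lhs at h => rw [hw1, SignCollect.eval_cons, hcoll w.tail, ← mul_assoc,
        ← SignCollect.eval_cons, hcoll (_ :: _), hw2, mul_assoc, ← Subgroup.coe_mul]
      rw [SignCollect.val_xor hc2, ← vinj h, ← SignCollect.val_xor hc2,
        ← SignCollect.val_xor hc2, Nat.xor_comm (coll23 (_ :: _)).2 (coll23 w.tail).2, Nat.xor_self,
        SignCollect.val_zero]
    · rw [List.mem_singleton] at hm
      subst hm
      have comm : ∀ (w w' : List ℕ), (coll23 (w ++ w')).1 = (coll23 (w' ++ w)).1 →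
          SignCollect.eval e w * SignCollect.eval e w' =
            SignCollect.eval e w' * SignCollect.eval e w *
              (SignCollect.val 21 c ((coll23 (w ++ w')).2 ^^^ (coll23 (w' ++ w)).2) : Γ) := by
        intro w w' hww
        rw [← SignCollect.eval_append, ← SignCollect.eval_append, hcoll (w ++ w'), hcoll (w' ++ w),
          hww, mul_assoc, ← Subgroup.coe_mul, SignCollect.val_xor hc2]
        congr 2
        rw [← mul_assoc, mul_comm (SignCollect.val 21 c (coll23 (w' ++ w)).2), mul_assoc, vsq,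
          mul_one]
      have h1 := comm fusWords.1 fusWords.2.1 (by decide +kernel)
      have h2 := comm fusWords.2.2.1 fusWords.2.2.2 (by decide +kernel)
      rw [SignCollect.val_xor hc2]
      set B := SignCollect.val 21 c
        ((coll23 (fusWords.1 ++ fusWords.2.1)).2 ^^^ (coll23 (fusWords.2.1 ++ fusWords.1)).2) with hB
      set B' := SignCollect.val 21 c ((coll23 (fusWords.2.2.1 ++ fusWords.2.2.2)).2 ^^^
        (coll23 (fusWords.2.2.2 ++ fusWords.2.2.1)).2) with hB'
      obtain ⟨γ, hγ⟩ := hσ.1 (F 0)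
      have img' : ∀ {w w' : List ℕ},
          mulL (mulL (fusElem.getD 0 (oneP 24)).1 (wordTab w).1) (fusElem.getD 0 (oneP 24)).2 =
            (wordTab w').1 →
          (SignCollect.eval e w')⁻¹ * (γ * SignCollect.eval e w * γ⁻¹) ∈ σ.ker := by
        intro w w' h
        refine hker ?_
        rw [map_mul, map_inv, inv_mul_eq_one, map_mul, map_mul, map_inv, hγ]
        exact grp_ext (by simp only [img_grp_mul, hword, hF, hFi]; exact h.symm)
      have k1 := img' (w := fusWords.1) (w' := fusWords.2.2.1) (by decide +kernel)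
      have k2 := img' (w := fusWords.2.1) (w' := fusWords.2.2.2) (by decide +kernel)
      generalize SignCollect.eval e fusWords.1 = X at h1 k1
      generalize SignCollect.eval e fusWords.2.1 = Y at h1 k2
      generalize SignCollect.eval e fusWords.2.2.1 = X' at h2 k1
      generalize SignCollect.eval e fusWords.2.2.2 = Y' at h2 k2
      obtain ⟨p, hp, eX⟩ : ∃ p ∈ σ.ker, γ * X * γ⁻¹ = X' * p :=
        ⟨_, k1, (mul_inv_cancel_left _ _).symm⟩
      obtain ⟨q, hq, eY⟩ : ∃ q ∈ σ.ker, γ * Y * γ⁻¹ = Y' * q :=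
        ⟨_, k2, (mul_inv_cancel_left _ _).symm⟩
      have e1 : γ * X * γ⁻¹ * (γ * Y * γ⁻¹) = γ * Y * γ⁻¹ * (γ * X * γ⁻¹) * (B : Γ) := by
        rw [show γ * X * γ⁻¹ * (γ * Y * γ⁻¹) = γ * (X * Y) * γ⁻¹ by group, h1,
          show γ * (Y * X * (B : Γ)) * γ⁻¹ = γ * Y * X * ((B : Γ) * γ⁻¹) by group,
          ← SignCollect.comm_center B γ⁻¹]
        group
      rw [eX, eY, show X' * p * (Y' * q) = X' * (p * Y') * q by group, ← cen p hp Y',
        show Y' * q * (X' * p) = Y' * (q * X') * p by group, ← cen q hq X',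
        show X' * (Y' * p) * q = X' * Y' * (p * q) by group, h2,
        show Y' * (X' * q) * p * (B : Γ) = Y' * X' * (q * p * (B : Γ)) by group,
        ← cen q hq p] at e1
      have e3 : (B' : Γ) = (B : Γ) := by
        have h4 : (B' : Γ) * (p * q) = p * q * (B : Γ) := mul_left_cancel
          ((mul_assoc (Y' * X') (B' : Γ) (p * q)).symm.trans e1)
        rw [← SignCollect.comm_center B' (p * q)] at h4
        exact mul_left_cancel h4
      rw [Subtype.ext e3]
      exact vsq _
  -- the new lifts
  let δ : ℕ → Subgroup.center Γ := fun t => SignCollect.val 21 c (shifts.getD t 0)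
  obtain ⟨ε, hε⟩ : ∃ ε : ℕ → Γ, ε = fun t => e t * (δ t : Γ) := ⟨_, rfl⟩
  have hδk : ∀ t, (δ t : Γ) ∈ σ.ker := fun t => by
    show (SignCollect.val 21 c _ : Γ) ∈ σ.ker
    rw [SignCollect.val]
    refine Finset.prod_induction _ (fun z : Subgroup.center Γ => (z : Γ) ∈ σ.ker)
      (fun a b ha hb => mul_mem ha hb) (one_mem _) fun p _ => ?_
    split
    exacts [hck p, one_mem _]
  have hσε : ∀ t, σ (ε t) = σ (e t) := fun t => by
    rw [hε]; simp [MonoidHom.mem_ker.1 (hδk t)]
  have ε2 : ∀ t, ε t * ε t = 1 := fun t => by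
    rw [hε]
    show e t * (δ t : Γ) * (e t * (δ t : Γ)) = 1
    rw [show e t * (δ t : Γ) * (e t * (δ t : Γ)) = e t * ((δ t : Γ) * e t) * δ t by group,
      ← SignCollect.comm_center (δ t) (e t), ← mul_assoc, e2, one_mul, ← Subgroup.coe_mul, vsq]
    rfl
  have hevalε : ∀ w : List ℕ, SignCollect.eval ε w = SignCollect.eval e w *
      (SignCollect.val 21 c (xorAll (w.map fun t => shifts.getD t 0)) : Γ) := by
    intro w
    induction w with
    | nil => simp [SignCollect.eval, xorAll, SignCollect.val_zero]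
    | cons a w ih =>
      rw [SignCollect.eval_cons, ih, SignCollect.eval_cons, hε]
      simp only [List.map_cons, xorAll, List.foldr_cons]
      rw [SignCollect.val_xor hc2, Subgroup.coe_mul]
      show e a * (δ a : Γ) * _ = e a * _ * ((δ a : Γ) * _)
      generalize δ a = d
      generalize SignCollect.eval e w = V
      rw [mul_assoc (e a), ← mul_assoc (d : Γ), ← SignCollect.comm_center d V]
      group
  have hxor : ∀ l : List ℕ, (∀ m ∈ l, SignCollect.val 21 c m = 1) →
      SignCollect.val 21 c (xorAll l) = 1 := by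
    intro l
    induction l with
    | nil => intro; exact SignCollect.val_zero _ _
    | cons a l ih =>
      intro h
      simp only [xorAll, List.foldr_cons]
      rw [SignCollect.val_xor hc2, h a List.mem_cons_self, one_mul]
      exact ih fun m hm => h m (List.mem_cons_of_mem _ hm)
  have hrelε : ∀ b a, b < a → ε a * ε b =
      ε b * SignCollect.eval ε (rel23 b a) *
        (SignCollect.val 21 (fun _ : ℕ => (1 : Subgroup.center Γ)) (2 ^ idx23 b a) : Γ) := by
    intro b a hba
    rw [SignCollect.val_two_pow, ite_self, Subgroup.coe_one, mul_one]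
    by_cases ha : a < 7
    · have hcomb : ∀ a : Fin 7, ∀ b : Fin 7, b < a →
          idx23 b a < 21 ∧
          xorAll ((combos.getD (idx23 b a) []).map fun i => eqMasks.getD i 0) =
            2 ^ idx23 b a ^^^ (shifts.getD a 0 ^^^
              xorAll ((rel23 b a).map fun t => shifts.getD t 0)) ∧
          ∀ i ∈ combos.getD (idx23 b a) [], i < eqMasks.length := by decide +kernel
      obtain ⟨hi21, hx, hlen⟩ := hcomb ⟨a, ha⟩ ⟨b, hba.trans ha⟩ hba
      simp only at hi21 hx hlen
      have h1 := hxor _ (fun m hm => by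
        obtain ⟨i, hi, rfl⟩ := List.mem_map.1 hm
        refine heq _ ?_
        rw [List.getD_eq_getElem?_getD, List.getElem?_eq_getElem (hlen i hi)]
        exact List.getElem_mem _ : ∀ m ∈ (combos.getD (idx23 b a) []).map
          (fun i => eqMasks.getD i 0), SignCollect.val 21 c m = 1)
      rw [hx, SignCollect.val_xor hc2, SignCollect.val_xor hc2] at h1
      change SignCollect.val 21 c (2 ^ idx23 b a) *
        (δ a * SignCollect.val 21 c (xorAll ((rel23 b a).map fun t => shifts.getD t 0))) = 1 at h1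
      rw [hevalε, hε]
      show e a * (δ a : Γ) * (e b * (δ b : Γ)) = e b * (δ b : Γ) *
        (SignCollect.eval e (rel23 b a) *
          (SignCollect.val 21 c (xorAll ((rel23 b a).map fun t => shifts.getD t 0)) : Γ))
      rw [show e a * (δ a : Γ) * (e b * (δ b : Γ)) = e a * ((δ a : Γ) * e b) * δ b by group,
        ← SignCollect.comm_center (δ a) (e b), ← mul_assoc, hrel b a hba,
        show e b * (δ b : Γ) * (SignCollect.eval e (rel23 b a) *
          (SignCollect.val 21 c (xorAll ((rel23 b a).map fun t => shifts.getD t 0)) : Γ)) =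
          e b * ((δ b : Γ) * SignCollect.eval e (rel23 b a)) *
          (SignCollect.val 21 c (xorAll ((rel23 b a).map fun t => shifts.getD t 0)) : Γ) by group,
        ← SignCollect.comm_center (δ b) (SignCollect.eval e (rel23 b a))]
      have h2 : SignCollect.val 21 c (2 ^ idx23 b a) * δ a * δ b =
          δ b * SignCollect.val 21 c (xorAll ((rel23 b a).map fun t => shifts.getD t 0)) := by
        rw [← mul_assoc] at h1
        rw [eq_inv_of_mul_eq_one_left h1, mul_comm (δ b)]
        congr 1
        exact inv_eq_of_mul_eq_one_right (vsq _)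
      calc _ = e b * SignCollect.eval e (rel23 b a) *
            ((SignCollect.val 21 c (2 ^ idx23 b a) * δ a * δ b : Subgroup.center Γ) : Γ) := by
            simp only [Subgroup.coe_mul]; group
        _ = _ := by rw [h2, Subgroup.coe_mul]; group
    · have hr : rel23 b a = [] := by
        have hnot : ∀ r ∈ relWords, r.2.1 < 7 := by decide +kernel
        rw [rel23, List.find?_eq_none.2 fun r hr h => by
          simp only [Bool.and_eq_true, beq_iff_eq] at h
          exact ha (h.2 ▸ hnot r hr)]
        simp [ha]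
      have hsh : shifts.length ≤ a := le_trans (by decide) (Nat.le_of_not_lt ha)
      rw [hr, SignCollect.eval_nil, hε]
      simp [he7 a (Nat.le_of_not_lt ha), δ, List.getD_eq_getElem?_getD,
        List.getElem?_eq_none hsh, SignCollect.val_zero]
  have hcollε : ∀ w, SignCollect.eval ε w = SignCollect.eval ε (coll23 w).1 := by
    intro w
    have h := SignCollect.eval_collect (c := fun _ : ℕ => (1 : Subgroup.center Γ))
      (fun _ => one_mul _) ε2 hrelε 40 w
    simpa [SignCollect.val, coll23] using h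
  -- the complement in the preimage of the Sylow subgroup
  let nfs : List (List ℕ) := (List.range 128).map fun m => (List.range 7).filter fun i => m.testBit i
  have hclosed : ∀ r ∈ nfs, ∀ i : Fin 7, (coll23 (r ++ [(i : ℕ)])).1 ∈ nfs := by decide +kernel
  let S : Subgroup Γ := Subgroup.closure (Set.range fun i : Fin 7 => ε i)
  have hS : ∀ x ∈ S, ∃ r ∈ nfs, x = SignCollect.eval ε r := by
    intro x hx
    induction hx using Subgroup.closure_induction_right with
    | one => exact ⟨[], by decide +kernel, rfl⟩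
    | mul_right x _ y hy ih =>
      obtain ⟨i, rfl⟩ := hy
      obtain ⟨r, hr, rfl⟩ := ih
      refine ⟨_, hclosed r hr i, ?_⟩
      rw [← hcollε, SignCollect.eval_append]
      simp [SignCollect.eval]
    | mul_inv_cancel x _ y hy ih =>
      obtain ⟨i, rfl⟩ := hy
      obtain ⟨r, hr, rfl⟩ := ih
      refine ⟨_, hclosed r hr i, ?_⟩
      rw [inv_eq_of_mul_eq_one_right (ε2 i), ← hcollε, SignCollect.eval_append]
      simp [SignCollect.eval]
  have hσev : ∀ w : List ℕ, σ (SignCollect.eval ε w) = σ (SignCollect.eval e w) := by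
    intro w
    induction w with
    | nil => rfl
    | cons a w ih => rw [SignCollect.eval_cons, SignCollect.eval_cons, map_mul, map_mul, ih, hσε]
  have hSker : ∀ x ∈ S, x ∈ σ.ker → x = 1 := by
    intro x hx hxk
    obtain ⟨r, hr, rfl⟩ := hS x hx
    have htriv : ∀ r ∈ nfs, (wordTab r).1 = List.range 24 → r = [] := by decide +kernel
    have h := congrArg (fun g : grp g23 => img (toFin g)) (MonoidHom.mem_ker.1 hxk)
    simp only [hσev, hword, img_grp_one] at h
    rw [htriv r hr h]
    rfl
  -- a Sylow subgroup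
  have hv : sylGens.all (validB 24) = true := by decide +kernel
  have hchk : check 24 sylLevels sylGens = true := by decide +kernel
  have hle23 : grp sylGens ≤ grp g23 :=
    grp_le_grp m23Levels g23_valid hv m23_check (by decide +kernel)
  have hcardQ : Nat.card ((grp sylGens).subgroupOf (grp g23)) = 2 ^ 7 := by
    rw [Nat.card_congr (Subgroup.subgroupOfEquivOfLe hle23).toEquiv, card_grp _ hv hchk]
    decide +kernel
  have hQgen : (grp sylGens).subgroupOf (grp g23) ≤
      Subgroup.closure (σ '' Set.range fun i : Fin 7 => ε i) := by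
    have h : grp sylGens ≤
        (Subgroup.closure (σ '' Set.range fun i : Fin 7 => ε i)).map (grp g23).subtype := by
      refine grp_le hv fun a ha k hk => ?_
      have hidx : ∀ a ∈ sylGens, ∃ i : Fin 7, a = sylGens.getD i (oneP 24) := by decide +kernel
      obtain ⟨i, rfl⟩ := hidx a ha
      refine ⟨E i, Subgroup.subset_closure ⟨ε i, ⟨i, rfl⟩, (hσε i).trans (hσe i)⟩,
        toFin.injective (img_injective ?_)⟩
      exact (hE i).trans hk.symm
    intro x hx
    obtain ⟨y, hy, he⟩ := h hx
    rwa [Subtype.ext he] at hy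
  obtain ⟨Q, hQ⟩ := (IsPGroup.of_card hcardQ).exists_le_sylow
  have hQeq : (grp sylGens).subgroupOf (grp g23) = Q := by
    refine Subgroup.eq_of_le_of_card_ge hQ (le_of_eq ?_)
    rw [hcardQ, Q.card_eq_multiplicity, card_g23,
      show (10200960 : ℕ) = 2 ^ 7 * 79695 from rfl, Nat.factorization_mul (by decide) (by decide),
      Finsupp.add_apply, Nat.Prime.factorization_pow (by decide), Finsupp.single_eq_same,
      Nat.factorization_eq_zero_of_not_dvd (by decide : ¬ 2 ∣ 79695)]
  obtain ⟨P₀⟩ : Nonempty (Sylow 2 Γ) := Sylow.nonempty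
  obtain ⟨g, hg⟩ := MulAction.exists_smul_eq (grp g23) (P₀.mapSurjective hσ.1) Q
  obtain ⟨γ, rfl⟩ := hσ.1 g
  let P : Sylow 2 Γ := γ • P₀
  have hPQ : (P : Subgroup Γ).map σ ≤ Q := by
    rw [← hg]
    intro v hv
    simp only [P, Sylow.coe_subgroup_smul, Sylow.coe_mapSurjective, Subgroup.mem_map,
      Subgroup.mem_smul_pointwise_iff_exists, MulAut.smul_def, MulAut.conj_apply] at hv ⊢
    obtain ⟨_, ⟨u, hu, rfl⟩, rfl⟩ := hv
    exact ⟨σ u, ⟨u, hu, rfl⟩, by simp⟩
  have hPS : (P : Subgroup Γ) ≤ S ⊔ σ.ker := by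
    refine (le_closure_union_ker (hPQ.trans (hQeq ▸ hQgen))).trans ?_
    rw [Subgroup.closure_union, Subgroup.closure_eq]
  refine Cfsg.Agent.H64.not_dvd_card_ker_of_sylow hσ P ?_
  rw [eq_bot_iff]
  rintro x ⟨hx1, hx2⟩
  refine Subgroup.mem_bot.2 (hSker x ?_ hx1)
  refine (Subgroup.commutator_le.2 fun u hu v hv => ?_) hx2
  obtain ⟨s, hs, z, hz, rfl⟩ := Subgroup.mem_sup_of_normal_right.1 (hPS hu)
  obtain ⟨s', hs', z', hz', rfl⟩ := Subgroup.mem_sup_of_normal_right.1 (hPS hv)
  have : ⁅s * z, s' * z'⁆ = ⁅s, s'⁆ := by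
    rw [commutatorElement_def, commutatorElement_def, mul_inv_rev, mul_inv_rev,
      show s * z * (s' * z') * (z⁻¹ * s⁻¹) * (z'⁻¹ * s'⁻¹) =
        s * (z * (s' * z') * z⁻¹) * s⁻¹ * z'⁻¹ * s'⁻¹ by group,
      ← cen z hz (s' * z'), mul_inv_cancel_right,
      show s * (s' * z') * s⁻¹ * z'⁻¹ * s'⁻¹ = s * s' * (z' * s⁻¹) * z'⁻¹ * s'⁻¹ by group,
      ← cen z' hz' s⁻¹]
    group
  rw [this]
  exact Subgroup.mul_mem _ (Subgroup.mul_mem _ (Subgroup.mul_mem _ hs hs') (Subgroup.inv_mem _ hs))
    (Subgroup.inv_mem _ hs')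

end Cfsg.Agent.H10
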