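import Cfsg.Agent.H10.M23Mult
import Cfsg.Agent.H10.TwoPointStem
import Cfsg.Agent.H10.MathieuStab
import Cfsg.Agent.H11.M24Simple
import Cfsg.Agent.H13.Actions

/-!
The Schur multipliers of M23 and M24 are trivial.
-/

set_option autoImplicit false

namespace Cfsg.Agent.H10

open Cfsg Cfsg.Agent.H13 Cfsg.Agent.H13.Data
open scoped commutatorElement

/-- Reduction of the even case to kernels of exponent two. -/
theorem not_two_dvd_of_exponent {Γ G : Type} [Group Γ] [Finite Γ] [Group G]
    (h : ∀ {Δ : Type} [Group Δ] [Finite Δ] (τ : Δ →* G), Cfsg.IsStemExtension τ →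
      (∀ z ∈ τ.ker, z * z = 1) → ¬ 2 ∣ Nat.card τ.ker)
    {σ : Γ →* G} (hσ : Cfsg.IsStemExtension σ) : ¬ 2 ∣ Nat.card σ.ker := by
  intro h2
  haveI : Fact (Nat.Prime 2) := ⟨by norm_num⟩
  have hcomm : ∀ a b : σ.ker, a * b = b * a := fun a b =>
    Subtype.ext (Subgroup.mem_center_iff.1 (hσ.2.1 b.2) a)
  let sqm : σ.ker →* σ.ker := MonoidHom.mk' (fun a => a * a) fun a b => by
    rw [mul_assoc a b (a * b), ← mul_assoc b a b, hcomm b a]; group
  let K2 : Subgroup Γ := sqm.range.map σ.ker.subtype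
  have hK2 : K2 ≤ σ.ker := Subgroup.map_subtype_le _
  haveI : K2.Normal := ⟨fun k hk g => by
    rw [Subgroup.mem_center_iff.1 (hσ.2.1 (hK2 hk)) g, mul_inv_cancel_right]; exact hk⟩
  let τ : Γ ⧸ K2 →* G := QuotientGroup.lift K2 σ hK2
  have hq : ∀ z ∈ τ.ker, ∃ y ∈ σ.ker, QuotientGroup.mk' K2 y = z := by
    intro z hz
    obtain ⟨y, rfl⟩ := QuotientGroup.mk'_surjective K2 z
    exact ⟨y, hz, rfl⟩
  have hst : Cfsg.IsStemExtension τ := by
    refine ⟨fun g => ?_, fun z hz => ?_, fun z hz => ?_⟩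
    · obtain ⟨y, rfl⟩ := hσ.1 g
      exact ⟨QuotientGroup.mk' K2 y, rfl⟩
    · obtain ⟨y, hy, rfl⟩ := hq z hz
      rw [Subgroup.mem_center_iff]
      intro w
      obtain ⟨w, rfl⟩ := QuotientGroup.mk'_surjective K2 w
      rw [← map_mul, ← map_mul, Subgroup.mem_center_iff.1 (hσ.2.1 hy) w]
    · obtain ⟨y, hy, rfl⟩ := hq z hz
      rw [← H82.map_commutator_of_surjective (QuotientGroup.mk'_surjective K2)]
      exact Subgroup.mem_map_of_mem _ (hσ.2.2 hy)
  have hexp : ∀ z ∈ τ.ker, z * z = 1 := by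
    intro z hz
    obtain ⟨y, hy, rfl⟩ := hq z hz
    rw [← map_mul]
    exact (QuotientGroup.eq_one_iff _).2 ⟨⟨y, hy⟩ * ⟨y, hy⟩, ⟨⟨y, hy⟩, rfl⟩, rfl⟩
  refine h τ hst hexp ?_
  obtain ⟨u, hu⟩ := exists_prime_orderOf_dvd_card' (G := σ.ker) 2 h2
  have hns : ¬ Function.Surjective sqm := fun hs => by
    have h1 : u * u = 1 * 1 := by rw [one_mul, ← pow_two, ← hu, pow_orderOf_eq_one]
    have := Finite.injective_iff_surjective.2 hs h1
    rw [this, orderOf_one] at hu
    cases hu
  obtain ⟨w, hw⟩ : ∃ w, w ∉ sqm.range := by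
    by_contra hall
    push Not at hall
    exact hns hall
  have hne : (⟨QuotientGroup.mk' K2 w, show τ _ = 1 from w.2⟩ : τ.ker) ≠ 1 := fun e => by
    obtain ⟨x, hx, he⟩ := (QuotientGroup.eq_one_iff _).1 (congrArg Subtype.val e)
    exact hw (Subtype.ext he ▸ hx)
  have ho : orderOf (⟨QuotientGroup.mk' K2 w, show τ _ = 1 from w.2⟩ : τ.ker) = 2 :=
    orderOf_eq_prime (Subtype.ext (by rw [pow_two]; exact hexp _ w.2)) hne
  rw [← ho]
  exact orderOf_dvd_natCard _

/-- The Schur multiplier of M23 is trivial. -/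
theorem mult_M23 : Cfsg.HasCyclicSchurMultiplier ↥Spor.M23 1 := by
  rw [M23_eq]
  haveI : Finite (grp g23) := Nat.finite_of_card_ne_zero (by rw [card_g23]; decide)
  refine Cfsg.Agent.H64.hasCyclicSchurMultiplier_one fun {Γ} _ _ σ hσ p hp => ?_
  have : Fact p.Prime := ⟨hp⟩
  by_cases h2 : p = 2
  · subst h2
    exact not_two_dvd_of_exponent (fun τ h h' => M23_two_trivial h h') hσ
  have hv : ∀ i : Fin 3, validB 24 (M23Data.threeElems.getD i (oneP 24)) = true := by decide +kernel
  have hs : ∀ i : Fin 3,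
      sift 24 (chain 24 m23Levels g23) (M23Data.threeElems.getD i (oneP 24)).1 = true := by
    decide +kernel
  choose t ht using fun i => exists_grp_elem m23Levels g23_valid m23_check (hv i) (hs i)
  by_cases h3 : p = 3
  · subst h3
    set x := t 0
    set y := t 1
    set n := t 2
    have ex : img (toFin (x : Equiv.Perm GolayPt)) = _ := ht 0
    have ey : img (toFin (y : Equiv.Perm GolayPt)) = _ := ht 1
    have en : img (toFin (n : Equiv.Perm GolayPt)) = _ := ht 2
    have hxy : x * y = y * x := grp_ext (by simp only [img_grp_mul, ex, ey]; decide +kernel)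
    have hx3 : x ^ 3 = 1 := grp_ext (by
      rw [pow_succ, pow_succ, pow_one]; simp only [img_grp_mul, img_grp_one, ex]; decide +kernel)
    have hy3 : y ^ 3 = 1 := grp_ext (by
      rw [pow_succ, pow_succ, pow_one]; simp only [img_grp_mul, img_grp_one, ey]; decide +kernel)
    have hnn : n * n = 1 := grp_ext (by simp only [img_grp_mul, img_grp_one, en]; decide +kernel)
    have hni : n⁻¹ = n := (eq_inv_of_mul_eq_one_left hnn).symm
    have hyi : y⁻¹ = y * y := inv_eq_of_mul_eq_one_right (by rw [← mul_assoc, ← pow_three']; exact hy3)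
    refine not_dvd_ker_of_rank_two hσ (by decide) ?_ hx3 hxy
      (grp_ext (by rw [hni]; simp only [img_grp_mul, ex, en]; decide +kernel) : n * x * n⁻¹ = x)
      (grp_ext (by rw [hni, hyi]; simp only [img_grp_mul, ey, en]; decide +kernel) :
        n * y * n⁻¹ = y⁻¹)
    refine exists_sylow_pair (k := 1) ?_ hy3
      (by rw [← hxy, mul_inv_cancel_right]; exact Subgroup.mem_zpowers x) ?_ ?_
    · rw [pow_one]
      refine orderOf_eq_prime hx3 fun h => ?_
      have e := congrArg (fun g : grp g23 => img (toFin g)) h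
      simp only [img_grp_one, ex] at e
      revert e
      decide +kernel
    · intro hmem
      rw [← mem_powers_iff_mem_zpowers, Submonoid.mem_powers_iff] at hmem
      obtain ⟨i, hi⟩ := hmem
      have hd : y = 1 ∨ y = x ∨ y = x * x := by
        rw [← hi, pow_eq_pow_mod i hx3]
        have := Nat.mod_lt i (show 0 < 3 by decide)
        interval_cases (i % 3) <;> simp [pow_two]
      rcases hd with h | h | h <;>
      · have e := congrArg (fun g : grp g23 => img (toFin g)) h
        simp only [img_grp_mul, img_grp_one, ex, ey] at e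
        revert e
        decide +kernel
    · rw [card_g23, show (10200960 : ℕ) = 3 ^ 2 * 1133440 from rfl,
        Nat.factorization_mul (by decide) (by decide), Finsupp.add_apply,
        Nat.Prime.factorization_pow (by decide), Finsupp.single_eq_same,
        Nat.factorization_eq_zero_of_not_dvd (by decide : ¬ 3 ∣ 1133440)]
  refine Cfsg.Agent.H64.not_dvd_card_ker_of_isCyclic hσ fun Q => ?_
  have hQ : Nat.card Q = p ^ (10200960 : ℕ).factorization p := by
    rw [Q.card_eq_multiplicity, card_g23]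
  have hle : (10200960 : ℕ).factorization p ≤ 1 := by
    by_contra h
    have hdvd : p ^ 2 ∣ 10200960 :=
      (pow_dvd_pow p (by omega : 2 ≤ (10200960 : ℕ).factorization p)).trans
        (Nat.ordProj_dvd 10200960 p)
    have h1 : p ∣ 10200960 := (dvd_pow_self p two_ne_zero).trans hdvd
    have hrw : (10200960 : ℕ) = 2 ^ 7 * (3 ^ 2 * (5 * (7 * (11 * 23)))) := by norm_num
    rw [hrw] at h1 hdvd
    have key : ∀ {q m : ℕ}, q.Prime → p ∣ q * m → p ≠ q → p ∣ m := fun hq hd hne =>
      (hp.dvd_mul.1 hd).resolve_left fun e => hne ((Nat.prime_dvd_prime_iff_eq hp hq).1 e)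
    have h1' : p ∣ 5 * (7 * (11 * 23)) :=
      (hp.dvd_mul.1 ((hp.dvd_mul.1 h1).resolve_left fun e =>
        h2 ((Nat.prime_dvd_prime_iff_eq hp Nat.prime_two).1 (hp.dvd_of_dvd_pow e)))).resolve_left
        fun e => h3 ((Nat.prime_dvd_prime_iff_eq hp Nat.prime_three).1 (hp.dvd_of_dvd_pow e))
    have hp23 : p = 5 ∨ p = 7 ∨ p = 11 ∨ p = 23 := by
      by_contra hne
      push Not at hne
      exact hne.2.2.2 ((Nat.prime_dvd_prime_iff_eq hp (by norm_num)).1
        (key (by norm_num) (key (by norm_num) (key (by norm_num) h1' hne.1) hne.2.1) hne.2.2.1))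
    rcases hp23 with rfl | rfl | rfl | rfl <;> revert hdvd <;> decide
  interval_cases h : (10200960 : ℕ).factorization p
  · rw [pow_zero] at hQ
    have := (Nat.card_eq_one_iff_unique.1 hQ).1
    infer_instance
  · rw [pow_one] at hQ
    exact isCyclic_of_prime_card hQ

/-- A simple group of composite order is perfect. -/
theorem perfect_of_simple {G : Type*} [Group G] [IsSimpleGroup G]
    (hc : ¬ (Nat.card G).Prime) : commutator G = ⊤ := by
  rcases (inferInstance : (commutator G).Normal).eq_bot_or_eq_top with h | h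
  · exfalso
    apply hc
    have hcomm : ∀ x y : G, x * y = y * x := fun x y => by
      rw [← commutatorElement_eq_one_iff_mul_comm, ← Subgroup.mem_bot, ← h, commutator_def]
      exact Subgroup.commutator_mem_commutator (Subgroup.mem_top x) (Subgroup.mem_top y)
    let i : CommGroup G := { (inferInstance : Group G) with mul_comm := hcomm }
    exact @IsSimpleGroup.prime_card G i (by infer_instance)
  · exact h

/-- The involution exchanging the two base points. -/
def m24T : PL :=
  ([23, 1, 19, 3, 14, 20, 6, 7, 13, 16, 10, 17, 15, 8, 4, 12, 9, 11, 18, 2, 5, 21, 22, 0],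
   [23, 1, 19, 3, 14, 20, 6, 7, 13, 16, 10, 17, 15, 8, 4, 12, 9, 11, 18, 2, 5, 21, 22, 0])

/-- An involution fixing the first base point. -/
def m24H : PL :=
  ([6, 4, 2, 16, 1, 21, 0, 11, 8, 9, 19, 7, 12, 18, 14, 22, 3, 17, 13, 10, 20, 5, 15, 23],
   [6, 4, 2, 16, 1, 21, 0, 11, 8, 9, 19, 7, 12, 18, 14, 22, 3, 17, 13, 10, 20, 5, 15, 23])

open MulAction in
/-- The Schur multiplier of M24 is trivial. -/
theorem mult_M24 : Cfsg.HasCyclicSchurMultiplier ↥Cfsg.M24 1 := by
  haveI : Finite M24 := Nat.finite_of_card_ne_zero (by rw [H11.card_M24]; decide)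
  refine H82.hasCyclicSchurMultiplier_one_iff.2 fun Γ _ _ σ hσ => ?_
  have elem : ∀ a : PL, validB 24 a = true →
      Cfsg.Agent.H12.fixesCode (Cfsg.Agent.H12.pack a.1) = true →
      ∃ g : M24, img (toFin (g : Equiv.Perm GolayPt)) = a.1 := by
    intro a ha hf
    obtain ⟨τ, -, rfl⟩ := valid_of_validB ha
    refine ⟨⟨toFin.symm τ, ?_⟩, congrArg img (toFin.apply_symm_apply τ)⟩
    have h := Cfsg.Agent.H12.permOf_mem_M24 hf
    rwa [(permOf_pack_img τ).2] at h
  obtain ⟨t, ht⟩ := elem m24T (by decide +kernel) (by decide +kernel)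
  obtain ⟨h, hh⟩ := elem m24H (by decide +kernel) (by decide +kernel)
  have mul24 : ∀ g g' : M24, img (toFin ((g * g' : M24) : Equiv.Perm GolayPt)) =
      mulL (img (toFin (g : Equiv.Perm GolayPt))) (img (toFin (g' : Equiv.Perm GolayPt))) :=
    fun g g' => by rw [Subgroup.coe_mul, map_mul, mulL_img]
  have one24 : img (toFin ((1 : M24) : Equiv.Perm GolayPt)) = List.range 24 := by
    rw [Subgroup.coe_one, map_one, img_one]
  have ext24 : ∀ {g g' : M24}, img (toFin (g : Equiv.Perm GolayPt)) =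
      img (toFin (g' : Equiv.Perm GolayPt)) → g = g' :=
    fun e => Subtype.ext (toFin.injective (img_injective e))
  have mp : ∀ {g : M24} {l : List ℕ}, img (toFin (g : Equiv.Perm GolayPt)) = l →
      ∀ {i j : ℕ}, i < 24 → l.getD i 0 = j →
        g • Cfsg.Agent.H12.pt i = Cfsg.Agent.H12.pt j := by
    intro g l e i j hi hj
    show (g : Equiv.Perm GolayPt) _ = _
    rw [← hj, ← e, show (img (toFin (g : Equiv.Perm GolayPt))).getD i 0 = _ from
      img_getD (toFin (g : Equiv.Perm GolayPt)) ⟨i, hi⟩, toFin_apply, Cfsg.Agent.H12.pt_idx]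
  have ht0 : t • (none : GolayPt) = some 0 := mp ht (i := 23) (j := 0) (by decide) (by decide +kernel)
  have ht1 : t • (some 0 : GolayPt) = none := mp ht (i := 0) (j := 23) (by decide) (by decide +kernel)
  have htf : t • Cfsg.Agent.H12.pt 1 = Cfsg.Agent.H12.pt 1 :=
    mp ht (by decide) (by decide +kernel)
  have hh0 : h • (none : GolayPt) = none := mp hh (i := 23) (j := 23) (by decide) (by decide +kernel)
  have hhc : h • (some 0 : GolayPt) = Cfsg.Agent.H12.pt 6 :=
    mp hh (i := 0) (j := 6) (by decide) (by decide +kernel)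
  let T : ThreePointData M24 GolayPt :=
    { a := none
      b := some 0
      t := t
      h₀ := h
      ne := by decide
      ta := ht0
      tb := ht1
      ha := hh0
      tt := ext24 (by simp only [mul24, one24, ht]; decide +kernel)
      hh := ext24 (by simp only [mul24, one24, hh]; decide +kernel)
      th3 := ext24 (by rw [pow_three]; simp only [mul24, one24, ht, hh]; decide +kernel)
      tconj := by
        obtain ⟨g, hg, hge⟩ := exists_map_list (l := [(none : GolayPt)])
          (l' := [Cfsg.Agent.H12.pt 1]) (by simp) (by simp) rfl (by simp)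
        refine ⟨⟨g, hg⟩, ?_⟩
        have h0 : (⟨g, hg⟩ : M24) • (none : GolayPt) = Cfsg.Agent.H12.pt 1 := hge 0 (by simp)
        rw [mul_smul, mul_smul, inv_smul_eq_iff, h0, htf]
      trans := by
        intro x hx
        obtain ⟨g, hg, hge⟩ := exists_map_list (l := [none, (some 0 : GolayPt)]) (l' := [none, x])
          (by simp) (by simp [Ne.symm hx]) rfl (by simp)
        exact ⟨⟨g, hg⟩, hge 0 (by simp), hge 1 (by simp)⟩
      trans₂ := by
        intro x hxa hxb
        have hne : ([none, some 0, Cfsg.Agent.H12.pt 6] : List GolayPt).Nodup := by decide +kernel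
        obtain ⟨g, hg, hge⟩ := exists_map_list
          (l := [none, some 0, Cfsg.Agent.H12.pt 6]) (l' := [none, some 0, x]) hne
          (by simp [Ne.symm hxa, Ne.symm hxb]) rfl (by simp)
        exact ⟨⟨g, hg⟩, hge 0 (by simp), hge 1 (by simp), by rw [hhc]; exact hge 2 (by simp)⟩ }
  have eA : stabilizer M24 T.a = Spor.M23.subgroupOf M24 := by
    ext g
    exact ⟨fun hg => ⟨g.2, hg⟩, fun hg => hg.2⟩
  let e23 : stabilizer M24 T.a ≃* Spor.M23 :=
    (MulEquiv.subgroupCongr eA).trans (Subgroup.subgroupOfEquivOfLe fun _ hg => hg.1)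
  have eD : stabilizer M24 T.a ⊓ stabilizer M24 T.b = Spor.M22.subgroupOf M24 := by
    ext g
    exact ⟨fun hg => ⟨⟨g.2, hg.1⟩, hg.2⟩, fun hg => ⟨hg.1.2, hg.2⟩⟩
  let e22 : ↥(stabilizer M24 T.a ⊓ stabilizer M24 T.b) ≃* Spor.M22 :=
    (MulEquiv.subgroupCongr eD).trans (Subgroup.subgroupOfEquivOfLe fun _ hg => hg.1.1)
  have hperfA : commutator (stabilizer M24 T.a) = ⊤ := by
    haveI : IsSimpleGroup Spor.M23 := by rw [M23_eq]; exact g23_simple
    haveI := e23.isSimpleGroup
    exact perfect_of_simple (by rw [Nat.card_congr e23.toEquiv, card_M23]; norm_num)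
  have hperfD : commutator ↥(stabilizer M24 T.a ⊓ stabilizer M24 T.b) = ⊤ := by
    haveI : IsSimpleGroup Spor.M22 := by rw [M22_eq]; exact g22_simple
    haveI := e22.isSimpleGroup
    exact perfect_of_simple (by rw [Nat.card_congr e22.toEquiv, card_M22]; norm_num)
  obtain ⟨δ, hδ⟩ := exists_delta T hperfA
    (H82.HasSchurMultiplier.of_mulEquiv mult_M23 e23.symm) hσ
  rw [← MonoidHom.ker_eq_bot_iff, Subgroup.eq_bot_iff_forall]
  intro z hz
  obtain ⟨d, hd⟩ := hδ ⟨z, hz⟩
  have hdk : d ∈ δ.ker := by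
    refine (show commutator _ ≤ δ.ker from ?_) (hperfD.ge (Subgroup.mem_top d))
    rw [commutator_def, Subgroup.commutator_le]
    intro p _ q _
    rw [MonoidHom.mem_ker, map_commutatorElement, commutatorElement_eq_one_iff_mul_comm]
    exact Subtype.ext (Subgroup.mem_center_iff.1 (hσ.2.1 (δ q).2) (δ p : Γ))
  rw [MonoidHom.mem_ker.1 hdk] at hd
  exact (congrArg Subtype.val hd).symm

end Cfsg.Agent.H10
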