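import Cfsg.Agent.H10.SteinerParams

/-!
Quartets of triples in an S(5,6,12): any two disjoint triples uniting to a block lie in exactly one.
-/

set_option autoImplicit false
set_option linter.unusedSectionVars false

open Finset

namespace Cfsg.Agent.H10

/-- Four triples any two of which unite to a block. -/
def IsQuartet {α : Type*} [DecidableEq α] (B : Set (Finset α)) (Q : Finset (Finset α)) : Prop :=
  Q.card = 4 ∧ (∀ t ∈ Q, t.card = 3) ∧ ∀ t ∈ Q, ∀ u ∈ Q, t ≠ u → t ∪ u ∈ B

variable {α : Type*} [DecidableEq α] [Fintype α] {B : Set (Finset α)}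
variable (hα : Fintype.card α = 12) (hB : Cfsg.IsSteinerSystem 5 6 B)
include hα hB

/-- Members of a quartet are disjoint. -/
theorem quartet_disjoint {Q : Finset (Finset α)} (hQ : IsQuartet B Q) {t u : Finset α} (ht : t ∈ Q)
    (hu : u ∈ Q) (h : t ≠ u) : Disjoint t u := by
  rw [← card_union_eq_card_add_card, hB.1 _ (hQ.2.2 t ht u hu h), hQ.2.1 t ht, hQ.2.1 u hu]

/-- The two triples completing a pair. -/
theorem exists_completing {t u : Finset α} (ht : t.card = 3) (hu : u.card = 3) (htu : Disjoint t u)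
    (hb : t ∪ u ∈ B) :
    ∃ v w : Finset α, v ≠ w ∧ v.card = 3 ∧ w.card = 3 ∧ Disjoint v (t ∪ u) ∧ Disjoint w (t ∪ u) ∧
      Disjoint v w ∧ t ∪ v ∈ B ∧ t ∪ w ∈ B ∧
      ∀ x : Finset α, Disjoint x (t ∪ u) → t ∪ x ∈ B → x = v ∨ x = w := by
  have h2 := s12_mu hα hB hb (subset_union_left (s₁ := t) (s₂ := u))
  rw [ht, show mu12 3 = 2 from rfl, card_eq_two] at h2
  obtain ⟨c, c', hcc, he⟩ := h2
  have hmem : ∀ e, (e ∈ B ∧ e ∩ (t ∪ u) = t) ↔ (e = c ∨ e = c') := fun e => by
    have := congrArg (fun S => e ∈ S) he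
    simpa using this
  have hc := (hmem c).2 (Or.inl rfl)
  have hc' := (hmem c').2 (Or.inr rfl)
  have hdis : ∀ e, e ∩ (t ∪ u) = t → Disjoint (e \ t) (t ∪ u) ∧ t ⊆ e := by
    intro e h
    refine ⟨?_, fun y hy => (mem_inter.1 (h.symm ▸ hy)).1⟩
    rw [disjoint_left]
    intro y hy hy'
    rw [mem_sdiff] at hy
    exact hy.2 (h ▸ mem_inter.2 ⟨hy.1, hy'⟩)
  obtain ⟨dv, tv⟩ := hdis c hc.2
  obtain ⟨dw, tw⟩ := hdis c' hc'.2
  have ev : t ∪ c \ t = c := union_sdiff_of_subset tv
  have ew : t ∪ c' \ t = c' := union_sdiff_of_subset tw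
  have hvw : Disjoint (c \ t) (c' \ t) := by
    rw [disjoint_left]
    intro x hxv hxw
    have hxt : x ∉ t := (mem_sdiff.1 hxv).2
    have hxu : x ∉ u := fun e => disjoint_left.1 dv hxv (mem_union_right t e)
    set s := insert x t with hs
    have hsc : s.card = 4 := by rw [hs, card_insert_of_notMem hxt, ht]
    set T := (blocks B).filter (fun d => s ⊆ d) with hT
    have hTc : T.card = 4 := by
      rw [hT, s12_lam hα hB (Y := s) (Or.inr (by omega)) s subset_rfl, hsc]; rfl
    have hex : ∀ q ∈ u, ∃ d, d ∈ B ∧ insert q s ⊆ d := fun q hq => by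
      obtain ⟨d, hd, -⟩ := hB.2 (insert q s) (by
        rw [card_insert_of_notMem ?_, hsc]
        simp only [hs, mem_insert, not_or]
        exact ⟨fun e : q = x => hxu (e ▸ hq), fun e => disjoint_left.1 htu e hq⟩)
      exact ⟨d, hd⟩
    choose f hf hfs using hex
    have hne : ∀ q hq, f q hq ≠ c ∧ f q hq ≠ c' := fun q hq => by
      have hq' : q ∈ f q hq := hfs q hq (mem_insert_self q s)
      exact ⟨fun e => disjoint_left.1 htu (hc.2 ▸ mem_inter.2 ⟨e ▸ hq', mem_union_right t hq⟩) hq,
        fun e => disjoint_left.1 htu (hc'.2 ▸ mem_inter.2 ⟨e ▸ hq', mem_union_right t hq⟩) hq⟩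
    have hsubT : insert c (insert c' (u.attach.image fun q => f q.1 q.2)) ⊆ T := by
      intro d hd
      rw [hT, mem_filter, mem_blocks]
      simp only [mem_insert, mem_image, mem_attach, true_and] at hd
      rcases hd with rfl | rfl | ⟨q, rfl⟩
      · exact ⟨hc.1, insert_subset (mem_sdiff.1 hxv).1 tv⟩
      · exact ⟨hc'.1, insert_subset (mem_sdiff.1 hxw).1 tw⟩
      · exact ⟨hf q.1 q.2, (subset_insert q.1 s).trans (hfs q.1 q.2)⟩
    have hinj : Function.Injective (fun q : {q // q ∈ u} => f q.1 q.2) := by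
      intro q q' e
      by_contra hqq
      have hqne : (q : α) ≠ q' := fun e' => hqq (Subtype.ext e')
      simp only at e
      have heq : f q.1 q.2 = t ∪ u := by
        refine block_unique hB (hf q.1 q.2) hb (s := insert (q : α) (insert (q' : α) t)) ?_ ?_ ?_
        · have hq't : (q' : α) ∉ t := fun e' => disjoint_left.1 htu e' q'.2
          have hqt : (q : α) ∉ insert (q' : α) t := by
            simp only [mem_insert, not_or]
            exact ⟨hqne, fun e' => disjoint_left.1 htu e' q.2⟩
          rw [card_insert_of_notMem hqt, card_insert_of_notMem hq't, ht]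
        · refine insert_subset (hfs q.1 q.2 (mem_insert_self _ _)) (insert_subset ?_ fun y hy => ?_)
          · rw [e]; exact hfs q'.1 q'.2 (mem_insert_self _ _)
          · exact hfs q.1 q.2 (by simp [hs, hy])
        · exact insert_subset (mem_union_right t q.2)
            (insert_subset (mem_union_right t q'.2) subset_union_left)
      have : x ∈ t ∪ u := heq ▸ hfs q.1 q.2 (by simp [hs])
      simp [hxt, hxu] at this
    have h5 := card_le_card hsubT
    rw [card_insert_of_notMem, card_insert_of_notMem, card_image_of_injective _ hinj, card_attach,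
      hu, hTc] at h5
    · omega
    · simp only [mem_image, mem_attach, true_and, not_exists]
      exact fun q e => (hne q.1 q.2).2 e
    · simp only [mem_insert, mem_image, mem_attach, true_and, not_or, not_exists]
      exact ⟨hcc, fun q e => (hne q.1 q.2).1 e⟩
  refine ⟨c \ t, c' \ t, fun e => hcc (by rw [← ev, ← ew, e]), ?_, ?_, dv, dw, hvw, by rw [ev]; exact hc.1,
    by rw [ew]; exact hc'.1, fun x hx hxB => ?_⟩
  · rw [card_sdiff_of_subset tv, hB.1 c hc.1, ht]
  · rw [card_sdiff_of_subset tw, hB.1 c' hc'.1, ht]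
  · have hxt : (t ∪ x) ∩ (t ∪ u) = t := by
      rw [union_inter_distrib_right, inter_eq_left.2 subset_union_left,
        disjoint_iff_inter_eq_empty.1 hx, union_empty]
    have hd : Disjoint x t := disjoint_of_subset_right subset_union_left hx
    rcases (hmem _).1 ⟨hxB, hxt⟩ with e | e
    · left; rw [← e, union_sdiff_cancel_left hd.symm]
    · right; rw [← e, union_sdiff_cancel_left hd.symm]

/-- Two disjoint triples uniting to a block lie in exactly one quartet. -/
theorem quartet_existsUnique {t u : Finset α} (ht : t.card = 3) (hu : u.card = 3)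
    (htu : Disjoint t u) (hb : t ∪ u ∈ B) : ∃! Q, IsQuartet B Q ∧ t ∈ Q ∧ u ∈ Q := by
  obtain ⟨v, w, hvw, hvc, hwc, dv, dw, dvw, hv, hw, hcls⟩ := exists_completing hα hB ht hu htu hb
  rw [disjoint_union_right] at dv dw
  have hne : ∀ {a b : Finset α}, a.card = 3 → Disjoint a b → a ≠ b := fun ha hd e => by
    subst e; rw [disjoint_self, bot_eq_empty] at hd; rw [hd] at ha; simp at ha
  have htu' : t ≠ u := hne ht htu
  have htv : t ≠ v := hne ht dv.1.symm
  have htw : t ≠ w := hne ht dw.1.symm
  have huv : u ≠ v := hne hu dv.2.symm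
  have huw : u ≠ w := hne hu dw.2.symm
  have huni : (t ∪ u) ∪ (v ∪ w) = univ := eq_univ_of_card _ (by
    rw [card_union_of_disjoint (by simp [disjoint_union_left, disjoint_union_right, dv.1.symm,
      dw.1.symm, dv.2.symm, dw.2.symm]), card_union_of_disjoint htu, card_union_of_disjoint dvw,
      ht, hu, hvc, hwc, hα])
  have compl : ∀ {a b c d : Finset α}, a ∪ b ∈ B → (a ∪ b) ∪ (c ∪ d) = univ → c.card = 3 →
      d.card = 3 → c ∪ d ∈ B := by
    intro a b c d hab hun hc hd
    have := s12_compl hα hB hab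
    have hsub : (a ∪ b)ᶜ ⊆ c ∪ d := fun x hx => by
      have : x ∈ (a ∪ b) ∪ (c ∪ d) := hun ▸ mem_univ x
      rw [mem_compl] at hx
      rw [mem_union] at this
      exact this.resolve_left hx
    rw [← eq_of_subset_of_card_le hsub (by
      rw [hB.1 _ this]
      exact (card_union_le c d).trans (by omega))]
    exact this
  have h1 : u ∪ w ∈ B := compl hv (by rw [← huni]; ac_rfl) hu hwc
  have h2 : u ∪ v ∈ B := compl hw (by rw [← huni]; ac_rfl) hu hvc
  have h3 : v ∪ w ∈ B := compl hb huni hvc hwc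
  have hset : ∀ x : Finset α, x ∈ ({t, u, v, w} : Finset _) ↔ x = t ∨ x = u ∨ x = v ∨ x = w :=
    fun x => by simp
  refine ⟨{t, u, v, w}, ⟨⟨?_, ?_, ?_⟩, by simp, by simp⟩, ?_⟩
  · rw [card_insert_of_notMem (by simp [htu', htv, htw]), card_insert_of_notMem (by simp [huv, huw]),
      card_pair hvw]
  · intro x hx
    rcases (hset x).1 hx with rfl | rfl | rfl | rfl <;> assumption
  · intro x hx y hy hxy
    rcases (hset x).1 hx with rfl | rfl | rfl | rfl <;> rcases (hset y).1 hy with rfl | rfl | rfl | rfl <;>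
      first
        | exact absurd rfl hxy
        | assumption
        | (rw [union_comm]; assumption)
  · rintro Q ⟨hQ, htQ, huQ⟩
    refine eq_of_subset_of_card_le (fun x hx => ?_) ?_
    · rw [hset]
      by_cases ex : x = t
      · exact Or.inl ex
      by_cases eu : x = u
      · exact Or.inr (Or.inl eu)
      right; right
      exact hcls x (disjoint_union_right.2 ⟨quartet_disjoint hα hB hQ hx htQ ex,
        quartet_disjoint hα hB hQ hx huQ eu⟩) (hQ.2.2 t htQ x hx (Ne.symm ex))
    · rw [hQ.1]; exact card_le_four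

/-- There are 220 quartets. -/
theorem card_quartets : {Q : Finset (Finset α) | IsQuartet B Q}.ncard = 220 := by
  classical
  set F := (univ : Finset (Finset (Finset α))).filter (fun Q => IsQuartet B Q) with hF
  have e : {Q : Finset (Finset α) | IsQuartet B Q}.ncard = F.card := by
    rw [← Set.ncard_coe_finset]; congr 1; ext Q; simp [hF]
  have hbij : (F.sigma fun Q => Q.offDiag).card
      = ((blocks B).sigma fun b => b.powersetCard 3).card := by
    refine card_bij (fun q _ => ⟨q.2.1 ∪ q.2.2, q.2.1⟩) ?_ ?_ ?_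
    · rintro ⟨Q, t, u⟩ h
      simp only [mem_sigma, hF, mem_filter, mem_univ, true_and, mem_offDiag] at h
      simp only [mem_sigma, mem_blocks, mem_powersetCard]
      exact ⟨h.1.2.2 t h.2.1 u h.2.2.1 h.2.2.2, subset_union_left, h.1.2.1 t h.2.1⟩
    · rintro ⟨Q, t, u⟩ h ⟨Q', t', u'⟩ h' heq
      simp only [mem_sigma, hF, mem_filter, mem_univ, true_and, mem_offDiag] at h h'
      simp only [Sigma.mk.injEq, heq_eq_eq] at heq
      obtain ⟨hu2, rfl⟩ := heq
      have d := quartet_disjoint hα hB h.1 h.2.1 h.2.2.1 h.2.2.2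
      have d' := quartet_disjoint hα hB h'.1 h'.2.1 h'.2.2.1 h'.2.2.2
      obtain rfl : u = u' := by
        rw [← union_sdiff_cancel_left d, hu2, union_sdiff_cancel_left d']
      have hQQ : Q = Q' := (quartet_existsUnique hα hB (h.1.2.1 t h.2.1) (h.1.2.1 u h.2.2.1) d
        (h.1.2.2 t h.2.1 u h.2.2.1 h.2.2.2)).unique ⟨h.1, h.2.1, h.2.2.1⟩ ⟨h'.1, h'.2.1, h'.2.2.1⟩
      subst hQQ
      rfl
    · rintro ⟨b, t⟩ h
      simp only [mem_sigma, mem_blocks, mem_powersetCard] at h
      have hbt : t ∪ b \ t = b := union_sdiff_of_subset h.2.1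
      obtain ⟨Q, ⟨hQ, htQ, huQ⟩, -⟩ := quartet_existsUnique hα hB h.2.2
        (show (b \ t).card = 3 by rw [card_sdiff_of_subset h.2.1, hB.1 b h.1, h.2.2])
        disjoint_sdiff (by rw [hbt]; exact h.1)
      have hne : t ≠ b \ t := fun e => by
        have hd : Disjoint t t := by
          have := (disjoint_sdiff : Disjoint t (b \ t))
          rwa [← e] at this
        rw [disjoint_self, bot_eq_empty] at hd
        have := h.2.2
        rw [hd] at this
        simp at this
      exact ⟨⟨Q, t, b \ t⟩, by simp [hF, hQ, htQ, huQ, hne], by simp [hbt]⟩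
  have h1 : ∑ Q ∈ F, Q.offDiag.card = F.card * 12 := by
    rw [sum_congr rfl (g := fun _ => 12) (fun Q hQ => by
      rw [offDiag_card, (mem_filter.1 hQ).2.1]), sum_const, smul_eq_mul]
  have h2 : ∑ b ∈ blocks B, (b.powersetCard 3).card = (blocks B).card * 20 := by
    rw [sum_congr rfl (g := fun _ => 20) (fun b hb => by
      rw [card_powersetCard, hB.1 b (mem_blocks.1 hb)]; rfl), sum_const, smul_eq_mul]
  rw [card_sigma, card_sigma, h1, h2] at hbij
  have h132 : (blocks B).card = 132 := by
    simpa [lam12] using s12_lam hα hB (Y := ∅) (Or.inr (by simp)) ∅ subset_rfl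
  rw [e]
  simp only [h132, smul_eq_mul] at hbij
  omega

end Cfsg.Agent.H10
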