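import Cfsg.Prelude.Def_SporadicCombinatorics
import Cfsg.Agent.H10.Quartets
import Cfsg.Agent.H13.Hexads

/-!
Quartets of a dodecad, read in the Steiner system of its hexads.
-/

set_option autoImplicit false
set_option linter.unusedSectionVars false

open Finset

namespace Cfsg.Agent.H10

variable {d : Finset Cfsg.GolayPt}

/-- The inclusion of a dodecad. -/
abbrev dodEmb (d : Finset Cfsg.GolayPt) : {p : Cfsg.GolayPt // p ∈ d} ↪ Cfsg.GolayPt :=
  Function.Embedding.subtype _

/-- The hexads of a dodecad as subsets of the dodecad. -/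
def hexSys (d : Finset Cfsg.GolayPt) : Set (Finset {p : Cfsg.GolayPt // p ∈ d}) :=
  {h | ∃ o ∈ Cfsg.octads, (o ∩ d).card = 6 ∧ h = Finset.subtype (fun p => p ∈ d) o}

/-- The hexads form an S(5,6,12). -/
theorem hexSys_steiner (hd : d ∈ Cfsg.dodecads) : Cfsg.IsSteinerSystem 5 6 (hexSys d) :=
  H13.hexads_steiner hd

/-- A dodecad has twelve points. -/
theorem dodecad_card (hd : d ∈ Cfsg.dodecads) : Fintype.card {p : Cfsg.GolayPt // p ∈ d} = 12 := by
  rw [Fintype.card_coe]; exact hd.2

/-- Membership in `hexadsOn`, transported. -/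
theorem map_mem_hexadsOn {h : Finset {p : Cfsg.GolayPt // p ∈ d}} :
    h.map (dodEmb d) ∈ Cfsg.hexadsOn d ↔ h ∈ hexSys d := by
  have key : ∀ o : Finset Cfsg.GolayPt,
      (Finset.subtype (fun p => p ∈ d) o).map (dodEmb d) = o ∩ d := fun o => by
    rw [Finset.subtype_map, filter_mem_eq_inter]
  constructor
  · rintro ⟨hc, o, ho, he⟩
    refine ⟨o, ho, by rw [he, hc], map_injective (dodEmb d) ?_⟩
    rw [key, he]
  · rintro ⟨o, ho, hc, rfl⟩
    exact ⟨by rw [key, hc], o, ho, (key o).symm⟩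

/-- A subset of the dodecad comes from its subtype. -/
theorem map_subtype_eq {t : Finset Cfsg.GolayPt} (ht : t ⊆ d) :
    (Finset.subtype (fun p => p ∈ d) t).map (dodEmb d) = t := by
  rw [Finset.subtype_map, filter_eq_self.2 fun x hx => ht hx]

/-- Quartets of a dodecad are the images of quartets of its hexad system. -/
theorem quartets_eq :
    Cfsg.quartets d = (fun Q => Q.map (mapEmbedding (dodEmb d)).toEmbedding) ''
      {Q | IsQuartet (hexSys d) Q} := by
  ext Q
  constructor
  · rintro ⟨hc, ht, hu⟩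
    refine ⟨Q.image (Finset.subtype (fun p => p ∈ d)), ⟨?_, ?_, ?_⟩, ?_⟩
    · rw [card_image_of_injOn, hc]
      intro a ha b hb e
      rw [← map_subtype_eq (ht a ha).2, ← map_subtype_eq (ht b hb).2]
      exact congrArg _ e
    · intro t' ht'
      obtain ⟨t, htQ, rfl⟩ := mem_image.1 ht'
      rw [← card_map (dodEmb d), map_subtype_eq (ht t htQ).2, (ht t htQ).1]
    · intro t' ht' u' hu' hne
      obtain ⟨t, htQ, rfl⟩ := mem_image.1 ht'
      obtain ⟨u, huQ, rfl⟩ := mem_image.1 hu'
      rw [← map_mem_hexadsOn, Finset.map_union, map_subtype_eq (ht t htQ).2,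
        map_subtype_eq (ht u huQ).2]
      exact hu t htQ u huQ (fun e => hne (e ▸ rfl))
    · ext t
      simp only [mem_map, mem_image, RelEmbedding.coe_toEmbedding, mapEmbedding_apply]
      constructor
      · rintro ⟨_, ⟨t', ht', rfl⟩, rfl⟩
        rwa [map_subtype_eq (ht t' ht').2]
      · exact fun h => ⟨_, ⟨t, h, rfl⟩, map_subtype_eq (ht t h).2⟩
  · rintro ⟨Q', ⟨hc, ht, hu⟩, rfl⟩
    refine ⟨by rw [card_map, hc], ?_, ?_⟩
    · intro t h
      simp only [mem_map, RelEmbedding.coe_toEmbedding, mapEmbedding_apply] at h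
      obtain ⟨t', ht', rfl⟩ := h
      exact ⟨by rw [card_map, ht t' ht'], fun x hx => by
        obtain ⟨y, -, rfl⟩ := mem_map.1 hx; exact y.2⟩
    · intro t h u h' hne
      simp only [mem_map, RelEmbedding.coe_toEmbedding, mapEmbedding_apply] at h h'
      obtain ⟨t', ht', rfl⟩ := h
      obtain ⟨u', hu', rfl⟩ := h'
      rw [← Finset.map_union, map_mem_hexadsOn]
      exact hu t' ht' u' hu' (fun e => hne (e ▸ rfl))

/-- Two disjoint triples uniting to a hexad lie in exactly one quartet of the dodecad. -/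
theorem dodecad_quartet_existsUnique (hd : d ∈ Cfsg.dodecads) {t u : Finset Cfsg.GolayPt}
    (ht : t.card = 3) (hu : u.card = 3) (htu : Disjoint t u) (hh : t ∪ u ∈ Cfsg.hexadsOn d) :
    ∃! Q : Finset (Finset Cfsg.GolayPt), Q ∈ Cfsg.quartets d ∧ t ∈ Q ∧ u ∈ Q := by
  have hsub : t ∪ u ⊆ d := by
    obtain ⟨-, o, -, he⟩ := hh
    rw [← he]; exact inter_subset_right
  rw [union_subset_iff] at hsub
  set t' := Finset.subtype (fun p => p ∈ d) t with ht'
  set u' := Finset.subtype (fun p => p ∈ d) u with hu'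
  have et : t'.map (dodEmb d) = t := map_subtype_eq hsub.1
  have eu : u'.map (dodEmb d) = u := map_subtype_eq hsub.2
  obtain ⟨Q, ⟨hQ, htQ, huQ⟩, huniq⟩ := quartet_existsUnique (dodecad_card hd) (hexSys_steiner hd)
    (t := t') (u := u') (by rw [← card_map (dodEmb d), et, ht]) (by rw [← card_map (dodEmb d), eu, hu])
    (by rw [← disjoint_map (dodEmb d), et, eu]; exact htu)
    (by rw [← map_mem_hexadsOn, Finset.map_union, et, eu]; exact hh)
  refine ⟨Q.map (mapEmbedding (dodEmb d)).toEmbedding, ⟨?_, ?_, ?_⟩, ?_⟩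
  · rw [quartets_eq]; exact ⟨Q, hQ, rfl⟩
  · exact mem_map.2 ⟨t', htQ, et⟩
  · exact mem_map.2 ⟨u', huQ, eu⟩
  · rintro R ⟨hR, htR, huR⟩
    rw [quartets_eq] at hR
    obtain ⟨R', hR', rfl⟩ := hR
    simp only [mem_map, RelEmbedding.coe_toEmbedding, mapEmbedding_apply] at htR huR
    obtain ⟨a, ha, hae⟩ := htR
    obtain ⟨b, hb, hbe⟩ := huR
    obtain rfl : a = t' := map_injective _ (hae.trans et.symm)
    obtain rfl : b = u' := map_injective _ (hbe.trans eu.symm)
    simp only [huniq R' ⟨hR', ha, hb⟩]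

/-- A dodecad has 220 quartets. -/
theorem ncard_dodecad_quartets (hd : d ∈ Cfsg.dodecads) : (Cfsg.quartets d).ncard = 220 := by
  rw [quartets_eq, Set.ncard_image_of_injective _ (map_injective _)]
  exact card_quartets (dodecad_card hd) (hexSys_steiner hd)

end Cfsg.Agent.H10
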