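import Cfsg.Agent.H10.Ext3
import Cfsg.Agent.H10.Ext4Simple

/-!
The Steiner system S(4,5,11) through its one-point extension, and simplicity of the automorphism
groups of S(4,5,11) and S(5,6,12).
-/

set_option autoImplicit false
set_option linter.unusedSectionVars false
set_option linter.style.haveILetI false

open Finset MulAction

namespace Cfsg.Agent.H10

variable {α : Type*} [DecidableEq α] [Fintype α] {B : Set (Finset α)}

/-- The one-point extension of an S(4,5,11): blocks with the new point, and complements of blocks. -/
def plusSys (B : Set (Finset α)) : Set (Finset (Option α)) :=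
  {b | if none ∈ b then eraseNone b ∈ B else (eraseNone b)ᶜ ∈ B}

omit [DecidableEq α] [Fintype α] in
/-- A set of options with the new point, from its other points. -/
theorem card_of_none_mem {b : Finset (Option α)} (h : none ∈ b) :
    b.card = (eraseNone b).card + 1 := by
  classical
  have h1 := card_insertNone (eraseNone b)
  rw [insertNone_eraseNone, insert_eq_of_mem h] at h1
  exact h1

omit [DecidableEq α] [Fintype α] in
/-- A set of options without the new point. -/
theorem card_of_none_notMem {b : Finset (Option α)} (h : none ∉ b) :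
    b.card = (eraseNone b).card := by
  classical
  have h1 := card_insertNone (eraseNone b)
  rw [insertNone_eraseNone, card_insert_of_notMem h] at h1
  omega

omit [DecidableEq α] [Fintype α] in
/-- Sets of options are determined by the new point and the others. -/
theorem option_set_ext {b c : Finset (Option α)} (h : none ∈ b ↔ none ∈ c)
    (h' : eraseNone b = eraseNone c) : b = c := by
  ext x
  cases x with
  | none => exact h
  | some a => rw [← mem_eraseNone, h', mem_eraseNone]

/-- The extension of an S(4,5,11) is an S(5,6,12). -/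
theorem plusSys_steiner (hα : Fintype.card α = 11) (hB : Cfsg.IsSteinerSystem 4 5 B) :
    Cfsg.IsSteinerSystem 5 6 (plusSys B) := by
  constructor
  · intro b hb
    simp only [plusSys, Set.mem_ofPred_eq] at hb
    split_ifs at hb with h
    · rw [card_of_none_mem h, hB.1 _ hb]
    · have := hB.1 _ hb
      rw [card_compl, hα] at this
      rw [card_of_none_notMem h]; omega
  · intro s hs
    by_cases hn : none ∈ s
    · have hs0 : (eraseNone s).card = 4 := by have := card_of_none_mem hn; omega
      obtain ⟨b0, ⟨hb0, hsb0⟩, hu⟩ := hB.2 _ hs0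
      refine ⟨insertNone b0, ⟨by simp [plusSys, hb0], fun x hx => ?_⟩, ?_⟩
      · cases x with
        | none => simp
        | some a => simpa using hsb0 (mem_eraseNone.2 hx)
      · rintro b ⟨hb, hsb⟩
        simp only [plusSys, Set.mem_ofPred_eq, if_pos (hsb hn)] at hb
        have := hu _ ⟨hb, fun a ha => mem_eraseNone.2 (hsb (mem_eraseNone.1 ha))⟩
        exact option_set_ext (by simp [hsb hn]) (by simp [this])
    · set s0 := eraseNone s with hs0
      have hs0c : s0.card = 5 := by rw [hs0, ← card_of_none_notMem hn, hs]
      have hsub : ∀ b : Finset (Option α), s ⊆ b ↔ s0 ⊆ eraseNone b := fun b => by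
        refine ⟨fun h a ha => mem_eraseNone.2 (h (mem_eraseNone.1 ha)), fun h x hx => ?_⟩
        cases x with
        | none => exact absurd hx hn
        | some a => exact mem_eraseNone.1 (h (mem_eraseNone.2 hx))
      have small : ∀ u ⊆ s0, u.card ≤ 4 → ((blocks B).filter (fun c => u ⊆ c)).card
          = [66, 30, 12, 4, 1].getD u.card 0 := fun u _ hu => by
        rw [lam_table hB hα (fun i => [66, 30, 12, 4, 1, 1].getD i 0) (by decide) (by decide)
          (Y := u) (Or.inr hu) u subset_rfl]
        interval_cases u.card <;> rfl
      by_cases hs0B : s0 ∈ B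
      · have h0 := card_inter_eq (blocks B) s0 (fun i => [66, 30, 12, 4, 1, 1].getD i 0)
          (fun i => [0, 3, 2, 3, 0, 1].getD i 0)
          (lam_table hB hα (fun i => [66, 30, 12, 4, 1, 1].getD i 0) (by decide) (by decide) (Or.inl hs0B)) (by rw [hs0c]; decide) ∅
          (empty_subset _)
        simp [filter_eq_empty_iff] at h0
        refine ⟨insertNone s0, ⟨by simp [plusSys, hs0B], (hsub _).2 (by simp)⟩, ?_⟩
        rintro b ⟨hb, hsb⟩
        rw [hsub] at hsb
        simp only [plusSys, Set.mem_ofPred_eq] at hb
        split_ifs at hb with h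
        · refine option_set_ext (by simp [h]) ?_
          rw [eraseNone_insertNone]
          exact (eq_of_subset_of_card_le hsb (by rw [hB.1 _ hb, hs0c])).symm
        · refine absurd ?_ (h0 hb)
          rw [← disjoint_iff_inter_eq_empty]
          exact disjoint_of_subset_right hsb disjoint_compl_left
      · have h1 := card_inter_eq (blocks B) s0 (fun i => [66, 30, 12, 4, 1].getD i 0)
          (fun i => [1, 2, 3, 2, 1].getD i 0) (fun u hu => by
            rcases le_or_gt u.card 4 with h | h
            · exact small u hu h
            · have e : u = s0 := eq_of_subset_of_card_le hu (by omega)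
              rw [e, hs0c, List.getD_eq_default _ _ (by simp), card_eq_zero, filter_eq_empty_iff]
              intro c hc hsc
              rw [mem_blocks] at hc
              exact hs0B ((eq_of_subset_of_card_le hsc (by rw [hB.1 c hc, hs0c])).symm ▸ hc))
          (by rw [hs0c]; decide) ∅ (empty_subset _)
        simp only [card_empty, List.getD_cons_zero, card_eq_one] at h1
        obtain ⟨C, hC⟩ := h1
        have hiff : ∀ c, c ∈ B ∧ c ∩ s0 = ∅ ↔ c = C := fun c => by
          rw [← mem_singleton (a := C), ← hC]; simp
        have hC' := (hiff C).2 rfl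
        refine ⟨(Cᶜ).map Function.Embedding.some, ⟨?_, (hsub _).2 ?_⟩, ?_⟩
        · simp only [plusSys, Set.mem_ofPred_eq, eraseNone_map_some]
          rw [if_neg (by simp), compl_compl]; exact hC'.1
        · rw [eraseNone_map_some, subset_compl_iff_disjoint_right, disjoint_iff_inter_eq_empty,
            inter_comm]
          exact hC'.2
        rintro b ⟨hb, hsb⟩
        rw [hsub] at hsb
        simp only [plusSys, Set.mem_ofPred_eq] at hb
        split_ifs at hb with h
        · exact absurd ((eq_of_subset_of_card_le hsb (by rw [hB.1 _ hb, hs0c])).symm ▸ hb) hs0B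
        · refine option_set_ext (by simp [h]) ?_
          rw [eraseNone_map_some, ← (hiff _).1 ⟨hb, ?_⟩, compl_compl]
          rw [← disjoint_iff_inter_eq_empty]
          exact disjoint_of_subset_right hsb disjoint_compl_left

/-- The other points of the image of a set under an extended bijection. -/
theorem eraseNone_image {β : Type*} [DecidableEq β] (e : α ≃ β) (b : Finset (Option α)) :
    eraseNone (b.image e.optionCongr) = (eraseNone b).image e := by
  ext a
  simp [mem_eraseNone, Option.map_eq_some_iff]

/-- Membership of a set with the new point in the extension. -/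
theorem insertNone_mem_plusSys {b : Finset α} : insertNone b ∈ plusSys B ↔ b ∈ B := by
  simp [plusSys]

/-- Extended automorphisms are automorphisms of the extension. -/
theorem optionCongr_mem_iff {g : Equiv.Perm α} :
    g.optionCongr ∈ Cfsg.setSystemAut (plusSys B) ↔ g ∈ Cfsg.setSystemAut B := by
  constructor
  · intro h
    refine mem_setSystemAut_of_forall fun b hb => ?_
    rw [← insertNone_mem_plusSys (B := B),
      show insertNone (b.image g) = (insertNone b).image g.optionCongr from
        option_set_ext (by simp) (by simp [eraseNone_image])]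
    rw [mem_setSystemAut_iff] at h
    exact h.subset (image_mem_imgSys.2 (insertNone_mem_plusSys.2 hb))
  · intro h
    refine mem_setSystemAut_of_forall fun b hb => ?_
    rw [mem_setSystemAut_iff] at h
    have hn : none ∈ b.image g.optionCongr ↔ none ∈ b := by simp
    simp only [plusSys, Set.mem_ofPred_eq, eraseNone_image, hn] at hb ⊢
    split_ifs at hb ⊢
    · exact h.subset (image_mem_imgSys.2 hb)
    · rw [show ((eraseNone b).image g)ᶜ = ((eraseNone b)ᶜ).image g by
        ext a
        rw [← Equiv.apply_symm_apply g a, mem_compl, g.injective.mem_finset_image,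
          g.injective.mem_finset_image, mem_compl]]
      exact h.subset (image_mem_imgSys.2 hb)

/-- A bijection of options fixing the new point comes from a bijection. -/
theorem exists_optionCongr {β : Type*} (k : Option α ≃ Option β) (h : k none = none) :
    ∃ g : α ≃ β, g.optionCongr = k := by
  refine ⟨k.removeNone, Equiv.ext fun x => ?_⟩
  cases x with
  | none => simp [h]
  | some a =>
    rw [Equiv.optionCongr_apply, Option.map_some]
    refine Equiv.removeNone_some k ?_
    rcases hk : k (some a) with _ | b
    · exact absurd (k.injective (hk.trans h.symm)) (by simp)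
    · exact ⟨b, rfl⟩

/-- A four-tuple with the new point in front. -/
def consNone (x : Fin 4 ↪ α) : Fin 5 ↪ Option α :=
  ⟨Fin.cons none (some ∘ x), Fin.cons_injective_iff.2
    ⟨by rintro ⟨i, hi⟩; simp at hi, (Option.some_injective _).comp x.injective⟩⟩

variable (hα : Fintype.card α = 11) (hB : Cfsg.IsSteinerSystem 4 5 B)
include hα hB

/-- The automorphism group of an S(4,5,11) is four-fold transitive. -/
theorem s11_aut_transitive : IsMultiplyPretransitive (Cfsg.setSystemAut B) α 4 := by
  refine ⟨fun x y => ?_⟩
  obtain ⟨k, hk⟩ := (s12_aut_transitive (by simp [hα]) (plusSys_steiner hα hB)).exists_smul_eq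
    (consNone x) (consNone y)
  have hk' : ∀ i, (k : Equiv.Perm (Option α)) (consNone x i) = consNone y i :=
    fun i => DFunLike.congr_fun hk i
  obtain ⟨g, hg⟩ := exists_optionCongr (k : Equiv.Perm (Option α)) (by simpa [consNone] using hk' 0)
  have hmem : g ∈ Cfsg.setSystemAut B :=
    (optionCongr_mem_iff (B := B)).1 (by rw [hg]; exact k.2)
  refine ⟨⟨g, hmem⟩, ?_⟩
  ext i
  have := hk' i.succ
  rw [← hg] at this
  simpa [consNone] using this

/-- An automorphism of an S(4,5,11) fixing four points is trivial. -/
theorem s11_aut_eq_one (x : Fin 4 ↪ α) {g : Equiv.Perm α} (hg : g ∈ Cfsg.setSystemAut B)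
    (hfix : ∀ i, g (x i) = x i) : g = 1 := by
  have := s12_aut_eq_one (by simp [hα]) (plusSys_steiner hα hB) (consNone x)
    ((optionCongr_mem_iff (B := B)).2 hg) (fun i => by
      induction i using Fin.cases with
      | zero => simp [consNone]
      | succ j => simp [consNone, hfix])
  refine Equiv.ext fun a => ?_
  simpa using DFunLike.congr_fun this (some a)

/-- The automorphism group of an S(4,5,11) has order 7920. -/
theorem s11_aut_card : Nat.card (Cfsg.setSystemAut B) = 7920 := by
  obtain ⟨x⟩ : Nonempty (Fin 4 ↪ α) := Function.Embedding.nonempty_of_card_le (by simp [hα])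
  have hb : Function.Bijective (fun g : Cfsg.setSystemAut B => g • x) := by
    refine ⟨fun g h hgh => ?_, fun y => (s11_aut_transitive hα hB).exists_smul_eq x y⟩
    have hfix : ∀ i, ((h⁻¹ * g : Cfsg.setSystemAut B) : Equiv.Perm α) (x i) = x i := by
      intro i
      have e : (g : Equiv.Perm α) (x i) = (h : Equiv.Perm α) (x i) := DFunLike.congr_fun hgh i
      simp [e]
    have := s11_aut_eq_one hα hB x (h⁻¹ * g).2 hfix
    exact (inv_mul_eq_one.1 (Subtype.ext this)).symm
  rw [Nat.card_eq_of_bijective _ hb, Nat.card_eq_fintype_card, Fintype.card_embedding_eq, hα,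
    Fintype.card_fin]
  rfl

/-- The automorphism group of an S(4,5,11) is simple. -/
theorem s11_aut_simple : IsSimpleGroup (Cfsg.setSystemAut B) := by
  haveI : Fact (Nat.Prime 11) := ⟨by norm_num⟩
  have h4 := s11_aut_transitive hα hB
  haveI h2 : IsMultiplyPretransitive (Cfsg.setSystemAut B) α 2 :=
    isMultiplyPretransitive_of_le (n := 4) (by norm_num) (by simp [hα])
  haveI : IsPretransitive (Cfsg.setSystemAut B) α := isPretransitive_of_is_two_pretransitive
  exact isSimpleGroup_of_prime_degree (X := α) (p := 11) (M := 720)
    (by rw [Nat.card_eq_fintype_card, hα]) (s11_aut_card hα hB) (by norm_num) (by norm_num)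
    (by norm_num)

/-- Uniqueness of S(4,5,11). -/
theorem s11_iso {β : Type*} [DecidableEq β] [Fintype β] (hβ : Fintype.card β = 11)
    {B' : Set (Finset β)} (hB' : Cfsg.IsSteinerSystem 4 5 B') : Cfsg.SetSystemIso B B' := by
  obtain ⟨x⟩ : Nonempty (Fin 4 ↪ α) := Function.Embedding.nonempty_of_card_le (by simp [hα])
  obtain ⟨y⟩ : Nonempty (Fin 4 ↪ β) := Function.Embedding.nonempty_of_card_le (by simp [hβ])
  obtain ⟨e, he, hex⟩ := exists_std9 (by simp [hα]) (plusSys_steiner hα hB) (consNone x)
  obtain ⟨f, hf, hfy⟩ := exists_std9 (by simp [hβ]) (plusSys_steiner hβ hB') (consNone y)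
  have hnone : (e.trans f.symm) none = none := by
    rw [Equiv.trans_apply, Equiv.symm_apply_eq]
    exact (hex 0).trans (hfy 0).symm
  obtain ⟨g, hg⟩ := exists_optionCongr (e.trans f.symm) hnone
  have himg : imgSys g.optionCongr (plusSys B) = plusSys B' := by
    rw [hg, imgSys_trans, std9_eq he hf, imgSys_symm_eq rfl]
  refine setSystemIso_iff.2 ⟨g, ?_⟩
  ext b
  rw [mem_imgSys, ← insertNone_mem_plusSys (B := B), ← insertNone_mem_plusSys (B := B'), ← himg,
    mem_imgSys]
  refine iff_of_eq (congrArg (· ∈ plusSys B) (option_set_ext (by simp; exact ⟨none, by simp, by simp⟩) ?_))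
  rw [eraseNone_insertNone, show g.optionCongr.symm = g.symm.optionCongr from
    (Equiv.optionCongr_symm g), eraseNone_image, eraseNone_insertNone]

omit hα hB in
/-- The automorphism group of an S(5,6,12) is simple. -/
theorem s12_aut_simple {β : Type*} [DecidableEq β] [Fintype β] (hβ : Fintype.card β = 12)
    {B' : Set (Finset β)} (hB' : Cfsg.IsSteinerSystem 5 6 B') :
    IsSimpleGroup (Cfsg.setSystemAut B') := by
  haveI : Fact (Nat.Prime 11) := ⟨by norm_num⟩
  have h5 := s12_aut_transitive hβ hB'
  haveI h2 : IsMultiplyPretransitive (Cfsg.setSystemAut B') β 2 :=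
    isMultiplyPretransitive_of_le (n := 5) (by norm_num) (by simp [hβ])
  haveI : IsPretransitive (Cfsg.setSystemAut B') β := isPretransitive_of_is_two_pretransitive
  obtain ⟨x⟩ : Nonempty β := Fintype.card_pos_iff.1 (by omega)
  haveI := faithful_ofStabilizer (G := Cfsg.setSystemAut B') x
  have hX : Nat.card (SubMulAction.ofStabilizer (Cfsg.setSystemAut B') x) = 11 := by
    rw [SubMulAction.nat_card_ofStabilizer_eq, Nat.card_eq_fintype_card, hβ]
  have hG : Nat.card (stabilizer (Cfsg.setSystemAut B') x) = 11 * 720 := by
    have h := (stabilizer (Cfsg.setSystemAut B') x).index_mul_card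
    rw [index_stabilizer_of_transitive, Nat.card_eq_fintype_card (α := β), hβ,
      s12_aut_card hβ hB'] at h
    omega
  have h1 : IsMultiplyPretransitive (stabilizer (Cfsg.setSystemAut B') x)
      (SubMulAction.ofStabilizer (Cfsg.setSystemAut B') x) 1 :=
    SubMulAction.ofStabilizer.isMultiplyPretransitive.1 h2
  haveI : IsPretransitive (stabilizer (Cfsg.setSystemAut B') x)
      (SubMulAction.ofStabilizer (Cfsg.setSystemAut B') x) := is_one_pretransitive_iff.1 h1
  haveI : IsSimpleGroup (stabilizer (Cfsg.setSystemAut B') x) :=
    isSimpleGroup_of_prime_degree (X := SubMulAction.ofStabilizer (Cfsg.setSystemAut B') x)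
      hX hG (by norm_num) (by norm_num) (by norm_num)
  refine isSimpleGroup_of_stabilizer (X := β) ?_ (by rw [Nat.card_eq_fintype_card, hβ]; norm_num) x
  rw [Nat.card_eq_fintype_card, hβ]
  rintro ⟨q, k, hq, hk, hqk⟩
  have h2' := (Nat.prime_dvd_prime_iff_eq Nat.prime_two hq.nat_prime).1
    (Nat.prime_two.dvd_of_dvd_pow (hqk.symm ▸ by norm_num : 2 ∣ q ^ k))
  have h3' := (Nat.prime_dvd_prime_iff_eq Nat.prime_three hq.nat_prime).1
    (Nat.prime_three.dvd_of_dvd_pow (hqk.symm ▸ by norm_num : 3 ∣ q ^ k))
  omega

end Cfsg.Agent.H10
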