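import Cfsg.Agent.H10.Srg77Frame
import Cfsg.Agent.H10.Srg100

/-!
A strongly regular graph with parameters (77, 16, 0, 4) is the block graph of an S(3,6,22): the points
are its cocliques of size 21, found from the Gram vectors of the 22-dimensional representation.
-/

set_option autoImplicit false
set_option linter.unusedSectionVars false

open Finset
open scoped RealInnerProductSpace

namespace Cfsg.Agent.H10.S77

variable {V : Type*} [Fintype V] [DecidableEq V] (G : SimpleGraph V) [DecidableRel G.Adj]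

/-- The Gram matrix. -/
noncomputable def gm (u v : V) : ℝ :=
  (if u = v then 4 else 0) + 2 - 2 * if G.Adj u v then 1 else 0

/-- The space of the vectors. -/
abbrev Sp (V : Type*) [Fintype V] := EuclideanSpace ℝ (Option V)

/-- The cocliques of size 21. -/
def cocl : Finset (Finset V) :=
  (univ.powersetCard 21).filter fun C => ∀ u ∈ C, ∀ v ∈ C, ¬ G.Adj u v

variable {G}

theorem mem_cocl {C : Finset V} : C ∈ cocl G ↔ C.card = 21 ∧ ∀ u ∈ C, ∀ v ∈ C, ¬ G.Adj u v := by
  simp [cocl, mem_powersetCard]

variable (hG : G.IsSRGWith 77 16 0 4)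
include hG

theorem sum_adj (u : V) : ∑ v, (if G.Adj u v then (1 : ℝ) else 0) = 16 := by
  rw [← sum_filter, sum_const, nsmul_eq_mul, mul_one]
  have : (univ.filter fun v => G.Adj u v) = G.neighborFinset u := by ext; simp
  rw [this, SimpleGraph.card_neighborFinset_eq_degree, hG.regular u]
  norm_num

theorem sum_adj_adj (u z : V) :
    ∑ v, (if G.Adj u v then (1 : ℝ) else 0) * (if G.Adj z v then 1 else 0) =
      if u = z then 16 else if G.Adj u z then 0 else 4 := by
  split_ifs with h h'
  · subst h
    rw [← sum_adj hG u]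
    exact sum_congr rfl fun v _ => by split_ifs <;> norm_num
  all_goals
    have e : ∑ v, (if G.Adj u v then (1 : ℝ) else 0) * (if G.Adj z v then 1 else 0)
        = ((G.neighborFinset u ∩ G.neighborFinset z).card : ℝ) := by
      have : G.neighborFinset u ∩ G.neighborFinset z = univ.filter fun v => G.Adj u v ∧ G.Adj z v := by
        ext; simp
      rw [this, card_filter, Nat.cast_sum]
      refine sum_congr rfl fun v _ => ?_
      split_ifs <;> simp_all
    rw [e, srg_inter hG h]
    simp [h']

theorem no_tri {a b c : V} (hab : G.Adj a b) (hac : G.Adj a c) : ¬ G.Adj b c := by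
  intro hbc
  have h := srg_inter hG hbc.ne
  rw [if_pos hbc, card_eq_zero] at h
  have hm : a ∈ G.neighborFinset b ∩ G.neighborFinset c := by simp [hab.symm, hac.symm]
  rw [h] at hm
  simp at hm

theorem sum_gm (u : V) : ∑ v, gm G u v = 126 := by
  simp only [gm, sum_sub_distrib, sum_add_distrib, ← mul_sum, sum_adj hG, sum_ite_eq, mem_univ,
    if_true, sum_const, card_univ, hG.card]
  norm_num

theorem sum_gm_gm (u z : V) : ∑ v, gm G u v * gm G z v = 16 * gm G u z + 180 := by
  have e : ∀ v, gm G u v * gm G z v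
      = (if u = v then 4 * gm G z v else 0) + (if z = v then 8 - 8 * if G.Adj u v then 1 else 0 else 0)
        + 4 - 4 * (if G.Adj u v then (1 : ℝ) else 0) - 4 * (if G.Adj z v then (1 : ℝ) else 0)
        + 4 * ((if G.Adj u v then (1 : ℝ) else 0) * if G.Adj z v then 1 else 0) := by
    intro v
    by_cases h1 : u = v <;> by_cases h2 : z = v <;> simp only [gm, h1, h2, if_true, if_false] <;> ring
  rw [sum_congr rfl fun v _ => e v]
  simp only [sum_sub_distrib, sum_add_distrib, ← mul_sum, sum_adj hG, sum_adj_adj hG,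
    sum_ite_eq, mem_univ, if_true, sum_const, card_univ, hG.card, gm]
  by_cases h : u = z
  · subst h; simp; norm_num
  · by_cases h' : G.Adj u z
    · simp [h, h', h'.symm, Ne.symm h]; norm_num
    · have h'' : ¬ G.Adj z u := fun e => h' (G.adj_symm e)
      simp [h, h', h'', Ne.symm h]; norm_num

theorem exists_w : ∃ w : V → Sp V, ∀ u z, ⟪w u, w z⟫ = gm G u z := by
  refine ⟨fun v => WithLp.toLp 2 fun o => o.elim (Real.sqrt (10 / 7))
    fun u => (gm G v u - 10 / 7) / 4, fun u z => ?_⟩
  simp only [PiLp.inner_apply, RCLike.inner_apply, conj_trivial, Fintype.sum_option,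
    Option.elim_none, Option.elim_some]
  rw [Real.mul_self_sqrt (by norm_num)]
  have e : ∀ v, (gm G z v - 10 / 7) / 4 * ((gm G u v - 10 / 7) / 4)
      = (gm G u v * gm G z v - 10 / 7 * gm G u v - 10 / 7 * gm G z v + 100 / 49) / 16 := fun v => by
    ring
  simp only [e, ← sum_div, sum_add_distrib, sum_sub_distrib, ← mul_sum, sum_gm hG, sum_gm_gm hG,
    sum_const, card_univ, hG.card]
  norm_num
  ring

variable {w : V → Sp V} (hw : ∀ u z, ⟪w u, w z⟫ = gm G u z)
include hw

theorem inner_S (u : V) : ⟪w u, ∑ v, w v⟫ = 126 := by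
  rw [inner_sum, sum_congr rfl fun v _ => hw u v, sum_gm hG]

theorem frame_id {f g : Sp V} (hf : f ∈ Submodule.span ℝ (Set.range w))
    (hg : g ∈ Submodule.span ℝ (Set.range w)) :
    ∑ v, ⟪f, w v⟫ * ⟪g, w v⟫ = 16 * ⟪f, g⟫ + 5 / 441 * (⟪f, ∑ v, w v⟫ * ⟪g, ∑ v, w v⟫) := by
  induction hf, hg using Submodule.span_induction₂ with
  | mem_mem a b ha hb =>
    obtain ⟨u, rfl⟩ := ha
    obtain ⟨z, rfl⟩ := hb
    simp only [inner_S hG hw, hw, sum_gm_gm hG]
    norm_num
  | zero_left => simp
  | zero_right => simp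
  | add_left a b c _ _ _ h1 h2 => simp only [inner_add_left, add_mul, sum_add_distrib, h1, h2]; ring
  | add_right a b c _ _ _ h1 h2 =>
    simp only [inner_add_left, inner_add_right, mul_add, sum_add_distrib, h1, h2]; ring
  | smul_left r a b _ _ h1 =>
    simp only [real_inner_smul_left, mul_assoc, ← mul_sum, h1]; ring
  | smul_right r a b _ _ h1 =>
    simp only [real_inner_smul_left, real_inner_smul_right, mul_left_comm _ r, ← mul_sum, h1]; ring

/-- The six cocliques through a vertex, two through it and a non-neighbour. -/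
theorem cocl_through (x : V) :
    ((cocl G).filter fun C => x ∈ C).card = 6 ∧
      ∀ y, y ≠ x → ¬ G.Adj x y → ((cocl G).filter fun C => x ∈ C ∧ y ∈ C).card = 2 := by
  classical
  set P := G.neighborFinset x with hP
  set M := univ.filter (fun v : V => v ≠ x ∧ ¬ G.Adj x v) with hM
  have mP : ∀ v, v ∈ P ↔ G.Adj x v := fun v => SimpleGraph.mem_neighborFinset _ _ _
  have mM : ∀ v, v ∈ M ↔ v ≠ x ∧ ¬ G.Adj x v := fun v => by simp [hM]
  have hPc : P.card = 16 := by rw [hP, SimpleGraph.card_neighborFinset_eq_degree, hG.regular]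
  have huniv : (univ : Finset V) = insert x (P ∪ M) := by
    ext v
    simp only [mem_univ, mem_insert, mem_union, mP, mM, true_iff]
    tauto
  have hxPM : x ∉ P ∪ M := by simp [mP, mM]
  have hPM : Disjoint P M := disjoint_left.2 fun v h1 h2 => ((mM v).1 h2).2 ((mP v).1 h1)
  have hMc : M.card = 60 := by
    have h := congrArg Finset.card huniv
    rw [card_univ, hG.card, card_insert_of_notMem hxPM, card_union_of_disjoint hPM, hPc] at h
    omega
  have hPP : ∀ p ∈ P, ∀ q ∈ P, ¬ G.Adj p q := fun p hp q hq => no_tri hG ((mP p).1 hp) ((mP q).1 hq)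
  set Q : V → Finset V := fun y => P.filter fun p => G.Adj y p with hQ
  have hQ4 : ∀ y ∈ M, (Q y).card = 4 := by
    intro y hy
    rw [mM] at hy
    have h := srg_inter hG hy.1.symm
    rw [if_neg hy.2] at h
    rw [← h]
    congr 1
    ext p
    simp [hQ, mP]
  set c : V → V → ℝ := fun y p => 1 / 6 - 1 / 2 * if G.Adj y p then 1 else 0 with hc
  have hcsum : ∀ y ∈ M, ∑ p ∈ P, c y p = 2 / 3 := by
    intro y hy
    rw [hc, sum_sub_distrib, ← mul_sum, ← sum_filter, sum_const, sum_const, hPc]
    rw [show (P.filter fun p => G.Adj y p) = Q y from rfl, hQ4 y hy]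
    norm_num
  set r : V → Sp V := fun y => w y - ∑ p ∈ P, c y p • w p with hr
  have hgp : ∀ y, ∀ p ∈ P, y ∉ P → ⟪w y, w p⟫ = 2 - 2 * if G.Adj y p then 1 else 0 := by
    intro y p hp hy
    rw [hw, gm, if_neg (fun e : y = p => hy (e ▸ hp))]
    ring
  have hrp : ∀ y ∈ M, ∀ q ∈ P, ⟪r y, w q⟫ = 0 := by
    intro y hy q hq
    have e : ∀ p ∈ P, ⟪c y p • w p, w q⟫ = 2 * c y p + if p = q then 4 * c y p else 0 := by
      intro p hp
      rw [real_inner_smul_left, hw, gm, if_neg (hPP p hp q hq)]
      split_ifs <;> ring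
    rw [hr, inner_sub_left, sum_inner, sum_congr rfl e, sum_add_distrib, ← mul_sum, hcsum y hy,
      sum_ite_eq', if_pos hq, hgp y q hq fun h => disjoint_left.1 hPM h hy, hc]
    ring
  have hrx : ∀ y ∈ M, ⟪r y, w x⟫ = 2 := by
    intro y hy
    rw [hr, inner_sub_left, sum_inner, sum_eq_zero, hw, gm]
    · rw [mM] at hy
      rw [if_neg hy.1, if_neg fun e => hy.2 (G.adj_symm e)]
      norm_num
    · intro p hp
      rw [real_inner_smul_left, hw, gm, if_pos (G.adj_symm ((mP p).1 hp)),
        if_neg ((mP p).1 hp).ne.symm]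
      ring
  have hwr : ∀ (f : Sp V) (y : V), (∀ p ∈ P, ⟪f, w p⟫ = 0) → ⟪f, r y⟫ = ⟪f, w y⟫ := by
    intro f y hf
    rw [hr, inner_sub_right, inner_sum, sum_eq_zero, sub_zero]
    intro p hp
    rw [real_inner_smul_right, hf p hp, mul_zero]
  have hrr : ∀ y ∈ M, ∀ z ∈ M, ⟪r y, r z⟫ = gm G y z - ((Q y ∩ Q z).card : ℝ) := by
    intro y hy z hz
    rw [hwr _ z (hrp y hy), hr, inner_sub_left, sum_inner, hw]
    have e : ∀ p ∈ P, ⟪c y p • w p, w z⟫ =
        2 * c y p - 1 / 3 * (if G.Adj z p then 1 else 0) + if G.Adj y p ∧ G.Adj z p then 1 else 0 := by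
      intro p hp
      rw [real_inner_smul_left, real_inner_comm,
        hgp z p hp (fun h => disjoint_left.1 hPM h hz), hc]
      by_cases h1 : G.Adj y p <;> by_cases h2 : G.Adj z p <;> simp [h1, h2] <;> norm_num
    rw [sum_congr rfl e, sum_add_distrib, sum_sub_distrib, ← mul_sum, ← mul_sum, hcsum y hy,
      ← sum_filter, ← sum_filter, sum_const, sum_const,
      show (P.filter fun p => G.Adj z p) = Q z from rfl, hQ4 z hz,
      show (P.filter fun p => G.Adj y p ∧ G.Adj z p) = Q y ∩ Q z by ext; simp [hQ]; tauto]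
    norm_num
  have hadj0 : ∀ y z, G.Adj y z → Q y ∩ Q z = ∅ := by
    intro y z h
    rw [eq_empty_iff_forall_notMem]
    intro p hp
    simp only [hQ, mem_inter, mem_filter] at hp
    exact no_tri hG h hp.1.2 hp.2.2
  have hryy : ∀ y ∈ M, ⟪r y, r y⟫ = 2 := by
    intro y hy
    rw [hrr y hy y hy, inter_self, hQ4 y hy, gm, if_pos rfl, if_neg (G.irrefl)]
    norm_num
  have hxx : ⟪w x, w x⟫ = 6 := by
    rw [hw, gm, if_pos rfl, if_neg (G.irrefl)]; norm_num
  -- inner products of two residual vectors
  have hcases : ∀ y ∈ M, ∀ z ∈ M, y ≠ z →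
      (G.Adj y z ∧ (Q y ∩ Q z).card = 0 ∧ ⟪r y, r z⟫ = 0) ∨
      (¬ G.Adj y z ∧ (Q y ∩ Q z).card ≤ 2 ∧ ⟪r y, r z⟫ = 2 - ((Q y ∩ Q z).card : ℝ)) := by
    intro y hy z hz hne
    have e := hrr y hy z hz
    by_cases h : G.Adj y z
    · rw [gm, if_neg hne, if_pos h, hadj0 y z h, card_empty] at e
      exact Or.inl ⟨h, by rw [hadj0 y z h, card_empty], by rw [e]; norm_num⟩
    · rw [gm, if_neg hne, if_neg h] at e
      have e' : ⟪r y, r z⟫ = 2 - ((Q y ∩ Q z).card : ℝ) := by rw [e]; ring
      refine Or.inr ⟨h, ?_, e'⟩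
      have hcs := real_inner_mul_inner_self_le (r y + r z) (w x)
      simp only [inner_add_left, inner_add_right, hryy y hy, hryy z hz, hrx y hy, hrx z hz, hxx,
        e'] at hcs
      have hc' : ⟪r z, r y⟫ = ⟪r y, r z⟫ := real_inner_comm _ _
      rw [hc', e'] at hcs
      by_contra hlt
      have h3 : (3 : ℝ) ≤ ((Q y ∩ Q z).card : ℝ) := by exact_mod_cast (by omega : 3 ≤ (Q y ∩ Q z).card)
      nlinarith
  -- disjoint quads
  have hz0 : ∀ y ∈ M, ((M.erase y).filter fun z => (Q y ∩ Q z).card = 0).card = 15 := by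
    intro y hy
    have hi : ∀ z, ((Q y ∩ Q z).card : ℝ) = ∑ p ∈ Q y, if G.Adj z p then 1 else 0 := by
      intro z
      rw [← sum_filter, sum_const, nsmul_eq_mul, mul_one]
      congr 2
      ext p
      simp only [hQ, mem_inter, mem_filter]
      tauto
    have hcol : ∀ p ∈ Q y, ∀ q ∈ Q y,
        ∑ z ∈ M.erase y, ((if G.Adj z p then (1 : ℝ) else 0) * if G.Adj z q then 1 else 0)
          = 2 + if p = q then 12 else 0 := by
      intro p hp q hq
      simp only [hQ, mem_filter, mP] at hp hq
      have h := sum_adj_adj hG p q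
      rw [huniv, sum_insert hxPM, sum_union hPM, ← add_sum_erase M _ hy,
        if_neg (no_tri hG hp.1 hq.1), if_pos (G.adj_symm hp.1), if_pos (G.adj_symm hq.1),
        if_pos (G.adj_symm hp.2), if_pos (G.adj_symm hq.2),
        sum_eq_zero (s := P) (fun v hv => by
          rw [if_neg (hPP p ((mP p).2 hp.1) v hv), zero_mul])] at h
      simp only [G.adj_comm _ p, G.adj_comm _ q]
      split_ifs at h ⊢ <;> linarith
    have h1 : ∑ z ∈ M.erase y, ((Q y ∩ Q z).card : ℝ) = 56 := by
      simp only [hi]
      rw [sum_comm, sum_congr rfl (g := fun _ => (14 : ℝ)) (fun p hp => by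
        rw [← (by rw [hcol p hp p hp, if_pos rfl]; norm_num :
          ∑ z ∈ M.erase y, ((if G.Adj z p then (1 : ℝ) else 0) * if G.Adj z p then 1 else 0) = 14)]
        exact sum_congr rfl fun z _ => by split_ifs <;> norm_num), sum_const, hQ4 y hy]
      norm_num
    have h2 : ∑ z ∈ M.erase y, ((Q y ∩ Q z).card : ℝ) * (Q y ∩ Q z).card = 80 := by
      simp only [hi, sum_mul_sum]
      rw [sum_comm, sum_congr rfl (g := fun _ => (20 : ℝ)) (fun p hp => ?_), sum_const, hQ4 y hy]
      · norm_num
      rw [sum_comm, sum_congr rfl (fun q hq => hcol p hp q hq), sum_add_distrib, sum_const,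
        hQ4 y hy, sum_ite_eq, if_pos hp]
      norm_num
    have h0 : ∀ z ∈ M.erase y, (if (Q y ∩ Q z).card = 0 then (1 : ℝ) else 0)
        = 1 - 3 / 2 * (Q y ∩ Q z).card + 1 / 2 * ((Q y ∩ Q z).card * (Q y ∩ Q z).card) := by
      intro z hz
      rw [mem_erase] at hz
      have hle : (Q y ∩ Q z).card ≤ 2 := by
        rcases hcases y hy z hz.2 hz.1.symm with ⟨-, h, -⟩ | ⟨-, h, -⟩ <;> omega
      rcases Nat.le_iff_lt_or_eq.1 hle with h | h
      · rcases Nat.lt_succ_iff.1 h |>.lt_or_eq with h | h
        · rw [show (Q y ∩ Q z).card = 0 by omega]; norm_num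
        · rw [h]; norm_num
      · rw [h]; norm_num
    have h := sum_congr (s₁ := M.erase y) rfl h0
    rw [← sum_filter, sum_const, sum_add_distrib, sum_sub_distrib, sum_const, ← mul_sum, ← mul_sum,
      h1, h2, card_erase_of_mem hy, hMc, nsmul_eq_mul, nsmul_eq_mul] at h
    exact_mod_cast (by rw [mul_one] at h; linarith :
      (((M.erase y).filter fun z => (Q y ∩ Q z).card = 0).card : ℝ) = 15)
  have hy12 : ∀ y ∈ M, (M.filter fun z => G.Adj y z).card = 12 := by
    intro y hy
    have e : M.filter (fun z => G.Adj y z) = G.neighborFinset y \ Q y := by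
      ext z
      simp only [mem_filter, mM, mem_sdiff, SimpleGraph.mem_neighborFinset, hQ, mP]
      constructor
      · exact fun h => ⟨h.2, fun h' => h.1.2 h'.1⟩
      · rintro ⟨h, h'⟩
        refine ⟨⟨?_, fun hxz => h' ⟨hxz, h⟩⟩, h⟩
        rintro rfl
        exact ((mM y).1 hy).2 (G.adj_symm h)
    have hs : Q y ⊆ G.neighborFinset y := fun p hp => by
      simp only [hQ, mem_filter] at hp
      simp [hp.2]
    rw [e, card_sdiff_of_subset hs, SimpleGraph.card_neighborFinset_eq_degree, hG.regular, hQ4 y hy]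
  have hclass : ∀ y ∈ M, (M.filter fun z => r z = r y).card = 4 := by
    intro y hy
    set Z := (M.erase y).filter fun z => (Q y ∩ Q z).card = 0 with hZ
    have e1 : Z.filter (fun z => G.Adj y z) = M.filter (fun z => G.Adj y z) := by
      ext z
      simp only [hZ, mem_filter, mem_erase]
      exact ⟨fun h => ⟨h.1.1.2, h.2⟩,
        fun h => ⟨⟨⟨h.2.ne.symm, h.1⟩, by rw [hadj0 y z h.2, card_empty]⟩, h.2⟩⟩
    have e2 : M.filter (fun z => r z = r y) = insert y (Z.filter fun z => ¬ G.Adj y z) := by
      ext z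
      simp only [hZ, mem_filter, mem_insert, mem_erase]
      constructor
      · rintro ⟨hz, e⟩
        by_cases hzy : z = y
        · exact Or.inl hzy
        rcases hcases y hy z hz (Ne.symm hzy) with ⟨-, -, h⟩ | ⟨hn, -, h⟩ <;>
          rw [e, hryy y hy] at h
        · norm_num at h
        · exact Or.inr ⟨⟨⟨hzy, hz⟩, by exact_mod_cast (by linarith : ((Q y ∩ Q z).card : ℝ) = 0)⟩, hn⟩
      · rintro (rfl | ⟨⟨⟨hzy, hz⟩, h0⟩, hn⟩)
        · exact ⟨hy, rfl⟩
        · refine ⟨hz, ?_⟩
          rcases hcases y hy z hz (Ne.symm hzy) with ⟨ha, -, -⟩ | ⟨-, -, h⟩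
          · exact absurd ha hn
          · exact eq_of_inner (by
              rw [hryy y hy, hryy z hz, real_inner_comm, h, h0]; norm_num)
    have h := card_filter_add_card_filter_not (s := Z) (p := fun z => G.Adj y z)
    rw [e1, hy12 y hy, hz0 y hy] at h
    rw [e2, card_insert_of_notMem (by simp [hZ])]
    omega
  have hfib : ∀ K ⊆ M.image r, (M.filter fun y => r y ∈ K).card = 4 * K.card := by
    intro K hK
    rw [card_eq_sum_card_fiberwise (f := r) (s := M.filter fun y => r y ∈ K) (t := K) (fun y hy => (mem_filter.1 hy).2),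
      sum_congr rfl (g := fun _ => 4) (fun a ha => ?_), sum_const, smul_eq_mul, mul_comm]
    obtain ⟨y, hy, rfl⟩ := mem_image.1 (hK ha)
    rw [← hclass y hy, filter_filter]
    exact congrArg card (filter_congr fun z _ => ⟨fun h => h.2, fun h => ⟨h ▸ ha, h⟩⟩)
  -- the frame
  set R := M.image r with hR
  have hspan : ∀ f ∈ insert (w x) R, f ∈ Submodule.span ℝ (Set.range w) ∧
      (∀ p ∈ P, ⟪f, w p⟫ = 0) ∧ ⟪f, ∑ v, w v⟫ = 21 * ⟪f, w x⟫ := by
    intro f hf
    rcases mem_insert.1 hf with rfl | hf
    · refine ⟨Submodule.subset_span ⟨x, rfl⟩, fun p hp => ?_, by rw [inner_S hG hw, hxx]; norm_num⟩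
      rw [hw, gm, if_pos ((mP p).1 hp), if_neg ((mP p).1 hp).ne]
      ring
    · obtain ⟨y, hy, rfl⟩ := mem_image.1 hf
      refine ⟨Submodule.sub_mem _ (Submodule.subset_span ⟨y, rfl⟩) (Submodule.sum_mem _ fun p _ =>
        Submodule.smul_mem _ _ (Submodule.subset_span ⟨p, rfl⟩)), hrp y hy, ?_⟩
      rw [hrx y hy, hr, inner_sub_left, sum_inner, inner_S hG hw,
        sum_congr rfl (fun p _ => by rw [real_inner_smul_left, inner_S hG hw]), ← sum_mul,
        hcsum y hy]
      norm_num
  have hF : Frame (w x) R := by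
    constructor
    · exact hxx
    · intro a ha; obtain ⟨y, hy, rfl⟩ := mem_image.1 ha; exact hryy y hy
    · intro a ha; obtain ⟨y, hy, rfl⟩ := mem_image.1 ha; exact hrx y hy
    · intro a ha b hb hne
      obtain ⟨y, hy, rfl⟩ := mem_image.1 ha
      obtain ⟨z, hz, rfl⟩ := mem_image.1 hb
      rcases hcases y hy z hz (fun e => hne (e ▸ rfl)) with ⟨-, -, h⟩ | ⟨-, hle, h⟩
      · exact Or.inl h
      · rcases Nat.le_iff_lt_or_eq.1 hle with h' | h'
        · rcases Nat.lt_succ_iff.1 h' |>.lt_or_eq with h' | h'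
          · refine absurd (eq_of_inner ?_) hne
            rw [hryy y hy, hryy z hz, h, show (Q y ∩ Q z).card = 0 by omega]; norm_num
          · exact Or.inr (by rw [h, h']; norm_num)
        · exact Or.inl (by rw [h, h']; norm_num)
    · intro f hf g hg
      obtain ⟨hfs, hfp, hfS⟩ := hspan f hf
      obtain ⟨hgs, hgp, hgS⟩ := hspan g hg
      have h := frame_id hG hw hfs hgs
      rw [hfS, hgS, huniv, sum_insert hxPM, sum_union hPM,
        sum_eq_zero (s := P) (fun p hp => by rw [hfp p hp, zero_mul]),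
        sum_congr rfl (g := fun y => ⟪f, r y⟫ * ⟪g, r y⟫) (fun y _ => by
          rw [hwr f y hfp, hwr g y hgp]),
        sum_comp (fun a => ⟪f, a⟫ * ⟪g, a⟫) r,
        sum_congr rfl (g := fun a => 4 * (⟪f, a⟫ * ⟪g, a⟫)) (fun a ha => ?_), ← mul_sum] at h
      · linarith
      · obtain ⟨y, hy, rfl⟩ := mem_image.1 ha
        rw [hclass y hy, nsmul_eq_mul]; norm_num
  -- orthogonal classes have an edge between them
  have hedge : ∀ y ∈ M, ∀ z ∈ M, ⟪r y, r z⟫ = 0 → ∃ z' ∈ M, r z' = r z ∧ G.Adj y z' := by
    intro y hy z hz h0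
    by_contra hno
    push Not at hno
    set T := M.filter fun z' => r z' = r z with hT
    have h2 : ∀ z' ∈ T, (Q y ∩ Q z').card = 2 := by
      intro z' hz'
      rw [hT, mem_filter] at hz'
      have hne : y ≠ z' := fun e => by
        rw [← hz'.2, ← e, hryy y hy] at h0; norm_num at h0
      rcases hcases y hy z' hz'.1 hne with ⟨ha, -, -⟩ | ⟨-, -, h⟩
      · exact absurd ha (hno z' hz'.1 hz'.2)
      · rw [hz'.2, h0] at h
        exact_mod_cast (by linarith : ((Q y ∩ Q z').card : ℝ) = 2)
    have hle : (T.biUnion fun z' => Q y ∩ Q z').card ≤ (Q y).card :=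
      card_le_card (biUnion_subset.2 fun z' _ => inter_subset_left)
    rw [card_biUnion, sum_congr rfl h2, sum_const, hQ4 y hy, hT, hclass z hz] at hle
    · norm_num at hle
    · intro a ha b hb hab
      rw [mem_coe, hT, mem_filter] at ha hb
      rcases hcases a ha.1 b hb.1 hab with ⟨-, -, h⟩ | ⟨-, -, h⟩ <;>
        rw [ha.2, hb.2, hryy z hz] at h
      · norm_num at h
      · have h' : (Q a ∩ Q b).card = 0 := by
          exact_mod_cast (by linarith : ((Q a ∩ Q b).card : ℝ) = 0)
        rw [card_eq_zero] at h'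
        rw [Function.onFun, disjoint_left]
        intro p hpa hpb
        have : p ∈ Q a ∩ Q b := mem_inter.2 ⟨(mem_inter.1 hpa).2, (mem_inter.1 hpb).2⟩
        rw [h'] at this
        simp at this
  set Φ : Finset (Sp V) → Finset V := fun K => insert x (M.filter fun y => r y ∈ K) with hΦ
  have hxM : x ∉ M := fun h => ((mM x).1 h).1 rfl
  have himg : (cocl G).filter (fun C => x ∈ C) = (cliques R).image Φ := by
    ext C
    simp only [mem_filter, mem_image]
    constructor
    · rintro ⟨hC, hxC⟩
      rw [mem_cocl] at hC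
      obtain ⟨hC21, hCi⟩ := hC
      have hCM : C.erase x ⊆ M := fun y hy => by
        rw [mem_erase] at hy
        exact (mM y).2 ⟨hy.1, hCi x hxC y hy.2⟩
      -- each outside vertex has six neighbours in `C`
      set d : V → ℝ := fun u => ∑ v ∈ C, if G.Adj v u then (1 : ℝ) else 0 with hd
      have hdC : ∀ u ∈ C, d u = 0 := fun u hu => sum_eq_zero fun v hv => if_neg (hCi v hv u hu)
      have hd1 : ∑ u, d u = 336 := by
        rw [hd, sum_comm, sum_congr rfl (fun v _ => sum_adj hG v), sum_const, hC21]; norm_num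
      have hd2 : ∑ u, d u * d u = 2016 := by
        simp only [hd, sum_mul_sum]
        rw [sum_comm, sum_congr rfl (g := fun _ => (96 : ℝ)) (fun v hv => ?_), sum_const, hC21]
        · norm_num
        rw [sum_comm, sum_congr rfl (g := fun v' => 4 + if v = v' then (12 : ℝ) else 0)
          (fun v' hv' => by
            rw [sum_adj_adj hG v v', if_neg (hCi v hv v' hv')]
            split_ifs <;> norm_num), sum_add_distrib, sum_const, hC21, sum_ite_eq, if_pos hv]
        norm_num
      have hd6 : ∀ u ∉ C, d u = 6 := by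
        have h0 : ∑ u, (d u * d u - 12 * d u + if u ∈ C then 0 else 36) = 0 := by
          rw [sum_add_distrib, sum_sub_distrib, ← mul_sum, hd1, hd2, sum_ite, sum_const_zero,
            sum_const, ← compl_filter, card_compl, hG.card, filter_mem_eq_inter, univ_inter, hC21]
          norm_num
        rw [sum_eq_zero_iff_of_nonneg] at h0
        · intro u hu
          have := h0 u (mem_univ u)
          rw [if_neg hu] at this
          nlinarith
        · intro u _
          by_cases hu : u ∈ C
          · rw [if_pos hu, hdC u hu]; norm_num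
          · rw [if_neg hu]; nlinarith [sq_nonneg (d u - 6)]
      have hD : ∀ u, ⟪∑ v ∈ C, w v, w u⟫ = if u ∈ C then 46 else 30 := by
        intro u
        rw [sum_inner, sum_congr rfl (fun v _ => hw v u)]
        simp only [gm, sum_sub_distrib, sum_add_distrib, ← mul_sum, sum_const, hC21, sum_ite_eq']
        rw [show (∑ v ∈ C, if G.Adj v u then (1 : ℝ) else 0) = d u from rfl]
        by_cases hu : u ∈ C
        · rw [if_pos hu, if_pos hu, hdC u hu]; norm_num
        · rw [if_neg hu, if_neg hu, hd6 u hu]; norm_num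
      have hPC : ∀ p ∈ P, p ∉ C := fun p hp h => hCi x hxC p h ((mP p).1 hp)
      have hDr : ∀ y ∈ M, ⟪∑ v ∈ C, w v, r y⟫ = if y ∈ C then 26 else 10 := by
        intro y hy
        rw [hr, inner_sub_right, inner_sum, hD,
          sum_congr rfl (g := fun p => 30 * c y p) (fun p hp => by
            rw [real_inner_smul_right, hD, if_neg (hPC p hp), mul_comm]), ← mul_sum, hcsum y hy]
        split_ifs <;> norm_num
      refine ⟨(C.erase x).image r, ?_, ?_⟩
      · have hKR : (C.erase x).image r ⊆ R := image_subset_image hCM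
        have hfilt : M.filter (fun y => r y ∈ (C.erase x).image r) = C.erase x := by
          ext y
          simp only [mem_filter, mem_image]
          constructor
          · rintro ⟨hy, z, hz, e⟩
            have h := hDr y hy
            rw [← e, hDr z (hCM hz), if_pos (mem_erase.1 hz).2] at h
            refine mem_erase.2 ⟨((mM y).1 hy).1, ?_⟩
            by_contra hn
            rw [if_neg hn] at h
            norm_num at h
          · exact fun hy => ⟨hCM hy, y, hy, rfl⟩
        refine Frame.mem_cliques.2 ⟨⟨hKR, ?_⟩, ?_⟩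
        · have h := hfib _ hKR
          rw [hfilt, card_erase_of_mem hxC, hC21] at h
          omega
        · intro a ha b hb hne
          refine (hF.ab a (hKR ha) b (hKR hb) hne).resolve_left fun h0 => ?_
          obtain ⟨y, hy, rfl⟩ := mem_image.1 ha
          obtain ⟨z, hz, rfl⟩ := mem_image.1 hb
          obtain ⟨z', hz', e, hadj⟩ := hedge y (hCM hy) z (hCM hz) h0
          have hz'' : z' ∈ M.filter (fun y => r y ∈ (C.erase x).image r) :=
            mem_filter.2 ⟨hz', e ▸ hb⟩
          rw [hfilt] at hz''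
          exact hCi y (mem_erase.1 hy).2 z' (mem_erase.1 hz'').2 hadj
      · ext y
        simp only [hΦ, mem_insert, mem_filter, mem_image]
        constructor
        · rintro (rfl | ⟨hy, z, hz, e⟩)
          · exact hxC
          · have h := hDr y hy
            rw [← e, hDr z (hCM hz), if_pos (mem_erase.1 hz).2] at h
            by_contra hn
            rw [if_neg hn] at h
            norm_num at h
        · intro hy
          by_cases e : y = x
          · exact Or.inl e
          · exact Or.inr ⟨hCM (mem_erase.2 ⟨e, hy⟩), y, mem_erase.2 ⟨e, hy⟩, rfl⟩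
    · rintro ⟨K, hK, rfl⟩
      obtain ⟨⟨hKR, hK5⟩, hK1⟩ := Frame.mem_cliques.1 hK
      refine ⟨mem_cocl.2 ⟨?_, ?_⟩, mem_insert_self _ _⟩
      · rw [hΦ, card_insert_of_notMem (fun h => hxM (mem_filter.1 h).1), hfib K hKR, hK5]
      · intro u hu v hv hadj
        simp only [hΦ, mem_insert, mem_filter] at hu hv
        rcases hu with rfl | hu <;> rcases hv with rfl | hv
        · exact G.irrefl hadj
        · exact ((mM v).1 hv.1).2 hadj
        · exact ((mM u).1 hu.1).2 (G.adj_symm hadj)
        · rcases hcases u hu.1 v hv.1 hadj.ne with ⟨-, -, h⟩ | ⟨hn, -, -⟩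
          · have hne : r u ≠ r v := fun e => by rw [e, hryy v hv.1] at h; norm_num at h
            rw [hK1 _ hu.2 _ hv.2 hne] at h
            norm_num at h
          · exact hn hadj
  have hinj : Set.InjOn Φ (cliques R) := by
    intro K hK K' hK' e
    have key : ∀ K ∈ cliques R, ((Φ K).erase x).image r = K := by
      intro K hK
      rw [hΦ, erase_insert fun h => hxM (mem_filter.1 h).1]
      ext a
      simp only [mem_image, mem_filter]
      constructor
      · rintro ⟨y, ⟨-, h⟩, rfl⟩; exact h
      · intro ha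
        obtain ⟨y, hy, rfl⟩ := mem_image.1 ((Frame.mem_cliques.1 hK).1.1 ha)
        exact ⟨y, ⟨hy, ha⟩, rfl⟩
    rw [← key K hK, ← key K' hK', e]
  refine ⟨by rw [himg, card_image_of_injOn hinj, hF.card_cliques], fun y hyx hxy => ?_⟩
  have hy : y ∈ M := (mM y).2 ⟨hyx, hxy⟩
  rw [← filter_filter, himg, filter_image,
    card_image_of_injOn (hinj.mono (coe_subset.2 (filter_subset _ _))),
    filter_congr (q := fun K => r y ∈ K) fun K _ => by simp [hΦ, hyx, hy],
    hF.cliques_through (mem_image_of_mem r hy)]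

omit hw in
/-- A graph with these parameters is the block graph of an S(3,6,22). -/
theorem srg77_structure :
    ∃ B : Set (Finset {C : Finset V // C ∈ cocl G}),
      Fintype.card {C : Finset V // C ∈ cocl G} = 22 ∧ Cfsg.IsSteinerSystem 3 6 B ∧
        Nonempty (G ≃g Cfsg.blockGraph B) := by
  classical
  obtain ⟨w, hw⟩ := exists_w hG
  have hth := cocl_through hG hw
  have h22 : (cocl G).card = 22 := by
    have h : ∑ C ∈ cocl G, C.card = ∑ v : V, ((cocl G).filter fun C => v ∈ C).card := by
      simp only [card_filter]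
      rw [sum_comm]
      refine sum_congr rfl fun C _ => ?_
      rw [← card_filter, filter_mem_eq_inter, univ_inter]
    rw [sum_congr rfl (fun C hC => (mem_cocl.1 hC).1), sum_congr rfl (fun v _ => (hth v).1),
      sum_const, sum_const, card_univ, hG.card, smul_eq_mul, smul_eq_mul] at h
    omega
  have hα : Fintype.card {C : Finset V // C ∈ cocl G} = 22 := by rw [Fintype.card_coe, h22]
  let S : V → Finset {C : Finset V // C ∈ cocl G} := fun v => univ.filter fun C => v ∈ C.1
  have hmap : ∀ (p : Finset V → Prop) [DecidablePred p],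
      (univ.filter fun C : {C : Finset V // C ∈ cocl G} => p C.1).card = ((cocl G).filter p).card := by
    intro p _
    rw [← card_map (Function.Embedding.subtype _)]
    congr 1
    ext C
    simp [and_comm]
  have hS6 : ∀ v, (S v).card = 6 := fun v => by rw [hmap (fun C => v ∈ C), (hth v).1]
  have hint : ∀ u v, u ≠ v → (S u ∩ S v).card = if G.Adj u v then 0 else 2 := by
    intro u v hne
    have e : S u ∩ S v = univ.filter (fun C : {C : Finset V // C ∈ cocl G} => u ∈ C.1 ∧ v ∈ C.1) := by
      ext C; simp [S]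
    rw [e, hmap (fun C => u ∈ C ∧ v ∈ C)]
    split_ifs with h
    · rw [card_eq_zero, eq_empty_iff_forall_notMem]
      intro C hC
      rw [mem_filter, mem_cocl] at hC
      exact hC.1.2 u hC.2.1 v hC.2.2 h
    · exact (hth u).2 v hne.symm h
  have hinj : Function.Injective S := by
    intro u v h
    by_contra hne
    have := hint u v hne
    rw [h, inter_self, hS6] at this
    split_ifs at this <;> norm_num at this
  have huniq : ∀ s : Finset {C : Finset V // C ∈ cocl G}, s.card = 3 →
      ∀ u v, s ⊆ S u → s ⊆ S v → u = v := by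
    intro s hs u v hu hv
    by_contra hne
    have h3 := card_le_card (subset_inter hu hv)
    rw [hint u v hne, hs] at h3
    split_ifs at h3 <;> omega
  have hB : Cfsg.IsSteinerSystem 3 6 (Set.range S) := by
    refine ⟨?_, fun s hs => ?_⟩
    · rintro b ⟨v, rfl⟩; exact hS6 v
    · have hcov : (univ : Finset V).biUnion (fun v => (S v).powersetCard 3) = univ.powersetCard 3 := by
        refine eq_of_subset_of_card_le (fun t ht => ?_) ?_
        · obtain ⟨v, -, hvt⟩ := mem_biUnion.1 ht
          rw [mem_powersetCard] at hvt ⊢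
          exact ⟨subset_univ _, hvt.2⟩
        · rw [card_biUnion, sum_congr rfl (g := fun _ => 20) (fun v _ => by
            rw [card_powersetCard, hS6 v]; rfl), sum_const, card_univ, hG.card, card_powersetCard,
            card_univ, hα]
          · decide
          · intro u _ v _ huv
            rw [Function.onFun, disjoint_left]
            intro t ht1 ht2
            rw [mem_powersetCard] at ht1 ht2
            exact huv (huniq t ht1.2 u v ht1.1 ht2.1)
      have hsm : s ∈ (univ : Finset V).biUnion (fun v => (S v).powersetCard 3) := by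
        rw [hcov, mem_powersetCard]; exact ⟨subset_univ _, hs⟩
      obtain ⟨v, -, hv⟩ := mem_biUnion.1 hsm
      rw [mem_powersetCard] at hv
      refine ⟨S v, ⟨⟨v, rfl⟩, hv.1⟩, ?_⟩
      rintro b ⟨⟨u, rfl⟩, hu⟩
      rw [huniq s hs v u hv.1 hu]
  refine ⟨Set.range S, hα, hB, ⟨⟨Equiv.ofInjective S hinj, fun {u v} => ?_⟩⟩⟩
  rw [blockGraph_adj, (Equiv.ofInjective S hinj).injective.ne_iff]
  simp only [Equiv.ofInjective_apply]
  constructor
  · rintro ⟨hne, hd⟩
    by_contra hn
    have := hint u v hne
    rw [if_neg hn, disjoint_iff_inter_eq_empty.1 hd] at this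
    simp at this
  · intro h
    refine ⟨h.ne, disjoint_iff_inter_eq_empty.2 (card_eq_zero.1 ?_)⟩
    rw [hint u v h.ne, if_pos h]

omit hw in
/-- Uniqueness. -/
theorem srg77_iso {W : Type*} [Fintype W] [DecidableEq W] {H : SimpleGraph W} [DecidableRel H.Adj]
    (hH : H.IsSRGWith 77 16 0 4) : Nonempty (G ≃g H) := by
  obtain ⟨B, hα, hB, ⟨i₁⟩⟩ := srg77_structure hG
  obtain ⟨B', hβ, hB', ⟨i₂⟩⟩ := srg77_structure hH
  obtain ⟨j⟩ := blockGraph_iso (ext_iso (m := 1) le_rfl (by norm_num) hα hβ
    (isExt_of_22 hα hB) (isExt_of_22 hβ hB'))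
  exact ⟨(i₁.trans j).trans i₂.symm⟩

end Cfsg.Agent.H10.S77
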