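import Mathlib

/-!
Fifteen vectors of norm 2 forming the frame of the duads of a six-set: the six five-cliques.
-/

set_option autoImplicit false
set_option linter.unusedSectionVars false

open Finset
open scoped RealInnerProductSpace

namespace Cfsg.Agent.H10.S77

variable {E : Type*} [NormedAddCommGroup E] [InnerProductSpace ℝ E] [DecidableEq E]

/-- The defining properties of the frame. -/
structure Frame (x : E) (R : Finset E) : Prop where
  xx : ⟪x, x⟫ = 6
  aa : ∀ a ∈ R, ⟪a, a⟫ = 2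
  ax : ∀ a ∈ R, ⟪a, x⟫ = 2
  ab : ∀ a ∈ R, ∀ b ∈ R, a ≠ b → ⟪a, b⟫ = 0 ∨ ⟪a, b⟫ = 1
  quad0 : ∀ f ∈ insert x R, ∀ g ∈ insert x R,
    ∑ u ∈ R, ⟪f, u⟫ * ⟪g, u⟫ = 4 * ⟪f, g⟫ + ⟪f, x⟫ * ⟪g, x⟫

theorem eq_of_inner {a b : E} (h : ⟪a, a⟫ + ⟪b, b⟫ = 2 * ⟪a, b⟫) : a = b := by
  apply sub_eq_zero.1
  refine (inner_self_eq_zero (𝕜 := ℝ)).1 ?_
  rw [inner_sub_left, inner_sub_right, inner_sub_right, real_inner_comm a b]
  linarith

variable {x : E} {R : Finset E} (hF : Frame x R)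

/-- The five-cliques. -/
noncomputable def cliques (R : Finset E) : Finset (Finset E) :=
  (R.powersetCard 5).filter fun K => ∀ u ∈ K, ∀ v ∈ K, u ≠ v → ⟪u, v⟫ = 1

namespace Frame

include hF

theorem quad {f g : E} (hf : f ∈ Submodule.span ℝ (↑(insert x R) : Set E))
    (hg : g ∈ Submodule.span ℝ (↑(insert x R) : Set E)) :
    ∑ u ∈ R, ⟪f, u⟫ * ⟪g, u⟫ = 4 * ⟪f, g⟫ + ⟪f, x⟫ * ⟪g, x⟫ := by
  induction hf, hg using Submodule.span_induction₂ with
  | mem_mem a b ha hb => exact hF.quad0 a ha b hb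
  | zero_left => simp
  | zero_right => simp
  | add_left a b c _ _ _ h1 h2 => simp [inner_add_left, add_mul, sum_add_distrib, h1, h2]; ring
  | add_right a b c _ _ _ h1 h2 =>
    simp [inner_add_left, inner_add_right, mul_add, sum_add_distrib, h1, h2]; ring
  | smul_left r a b _ _ h1 =>
    simp only [real_inner_smul_left, mul_assoc, ← mul_sum, h1]; ring
  | smul_right r a b _ _ h1 =>
    simp only [real_inner_smul_left, real_inner_smul_right, mul_left_comm _ r, ← mul_sum, h1]; ring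

omit hF in
theorem mem_span {u : E} (hu : u ∈ R) : u ∈ Submodule.span ℝ (↑(insert x R) : Set E) :=
  Submodule.subset_span (mem_insert_of_mem hu)

omit hF in
theorem x_span : x ∈ Submodule.span ℝ (↑(insert x R) : Set E) :=
  Submodule.subset_span (mem_insert_self x R)

theorem lin {f : E} (hf : f ∈ Submodule.span ℝ (↑(insert x R) : Set E)) :
    ∑ u ∈ R, ⟪f, u⟫ = 5 * ⟪f, x⟫ := by
  have h := hF.quad hf x_span
  rw [sum_congr rfl (g := fun u => ⟪f, u⟫ * 2) fun u hu => by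
    rw [real_inner_comm u x, hF.ax u hu], ← sum_mul, hF.xx] at h
  linarith

theorem card_eq : R.card = 15 := by
  have h := hF.lin x_span
  rw [sum_congr rfl (g := fun _ => (2 : ℝ)) fun u hu => by rw [real_inner_comm u x, hF.ax u hu],
    sum_const, hF.xx, nsmul_eq_mul] at h
  exact_mod_cast (by linarith : (R.card : ℝ) = 15)

theorem ne_of_inner {a b : E} (ha : a ∈ R) (h : ⟪a, b⟫ ≠ 2) : a ≠ b := fun e =>
  h (e ▸ hF.aa a ha)

theorem eq_of_two {a b : E} (ha : a ∈ R) (hb : b ∈ R) (h : ⟪a, b⟫ = 2) : a = b :=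
  eq_of_inner (by rw [hF.aa a ha, hF.aa b hb, h]; norm_num)

theorem ab' {a b : E} (ha : a ∈ R) (hb : b ∈ R) :
    a = b ∧ ⟪a, b⟫ = 2 ∨ a ≠ b ∧ (⟪a, b⟫ = 0 ∨ ⟪a, b⟫ = 1) := by
  by_cases h : a = b
  · exact Or.inl ⟨h, h ▸ hF.aa a ha⟩
  · exact Or.inr ⟨h, hF.ab a ha b hb h⟩

theorem closed {a b : E} (ha : a ∈ R) (hb : b ∈ R) (h : ⟪a, b⟫ = 0) : x - a - b ∈ R := by
  have hv : x - a - b ∈ Submodule.span ℝ (↑(insert x R) : Set E) :=
    Submodule.sub_mem _ (Submodule.sub_mem _ x_span (mem_span ha)) (mem_span hb)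
  have hne : a ≠ b := hF.ne_of_inner ha (by rw [h]; norm_num)
  have hvx : ⟪x - a - b, x⟫ = 2 := by
    rw [inner_sub_left, inner_sub_left, hF.xx, hF.ax a ha, hF.ax b hb]; norm_num
  have hvv : ⟪x - a - b, x - a - b⟫ = 2 := by
    simp only [inner_sub_left, inner_sub_right, hF.xx, hF.aa a ha, hF.aa b hb,
      hF.ax a ha, hF.ax b hb, h, real_inner_comm a x, real_inner_comm b x, real_inner_comm a b]
    norm_num
  have h1 := hF.lin hv
  have h2 := hF.quad hv hv
  rw [hvx] at h1; rw [hvx, hvv] at h2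
  by_contra hn
  have h01 : ∀ u ∈ R, ⟪x - a - b, u⟫ * ⟪x - a - b, u⟫ = ⟪x - a - b, u⟫ := by
    intro u hu
    have e : ⟪x - a - b, u⟫ = 2 - ⟪a, u⟫ - ⟪b, u⟫ := by
      rw [inner_sub_left, inner_sub_left, real_inner_comm u x, hF.ax u hu]
    have hne2 : ⟪x - a - b, u⟫ ≠ 2 := fun h2' => hn (by
      rwa [eq_of_inner (a := x - a - b) (b := u) (by rw [hvv, hF.aa u hu, h2']; norm_num)])
    rw [e] at hne2 ⊢
    rcases hF.ab' ha hu with ⟨rfl, e1⟩ | ⟨-, e1 | e1⟩
    · rw [e1, real_inner_comm a b, h]; norm_num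
    all_goals
      rcases hF.ab' hb hu with ⟨rfl, e2⟩ | ⟨-, e2 | e2⟩
      · first
          | (rw [e1, e2]; norm_num; done)
          | (exfalso; linarith [h, e1])
      all_goals
        rw [e1, e2] at hne2 ⊢
        all_goals (first | (norm_num at hne2; done) | norm_num)
  rw [sum_congr rfl h01] at h2
  linarith

theorem card_nbr {a : E} (ha : a ∈ R) : (R.filter fun u => ⟪a, u⟫ = 1).card = 8 := by
  have h := hF.lin (mem_span ha)
  rw [hF.ax a ha, sum_congr rfl (g := fun u => (if ⟪a, u⟫ = 1 then (1 : ℝ) else 0) +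
    if a = u then 2 else 0) (fun u hu => by
      rcases hF.ab' ha hu with ⟨e, e1⟩ | ⟨e, e1 | e1⟩ <;> rw [e1] <;> norm_num [e]), sum_add_distrib,
    sum_ite_eq, if_pos ha, ← sum_filter, sum_const, nsmul_eq_mul] at h
  exact_mod_cast (by linarith : ((R.filter fun u => ⟪a, u⟫ = 1).card : ℝ) = 8)

theorem card_orth {a : E} (ha : a ∈ R) : (R.filter fun u => ⟪a, u⟫ = 0).card = 6 := by
  have e : R.filter (fun u => ¬ ⟪a, u⟫ = 1) = insert a (R.filter fun u => ⟪a, u⟫ = 0) := by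
    ext u
    simp only [mem_filter, mem_insert]
    constructor
    · rintro ⟨hu, hn⟩
      rcases hF.ab' ha hu with ⟨e, -⟩ | ⟨-, e1 | e1⟩
      · exact Or.inl e.symm
      · exact Or.inr ⟨hu, e1⟩
      · exact absurd e1 hn
    · rintro (rfl | ⟨hu, e1⟩)
      · exact ⟨ha, by rw [hF.aa u ha]; norm_num⟩
      · exact ⟨hu, by rw [e1]; norm_num⟩
  have h := card_filter_add_card_filter_not (s := R) (p := fun u => ⟪a, u⟫ = 1)
  rw [e, hF.card_nbr ha, card_insert_of_notMem (fun h' => by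
      have := (mem_filter.1 h').2
      rw [hF.aa a ha] at this
      norm_num at this), hF.card_eq] at h
  omega

/-- A point vector through `r` missing `c`. -/
theorem exists_point {c r : E} (hc : c ∈ R) (hr : r ∈ R) (hcr : ⟪c, r⟫ = 1) :
    ∃ f ∈ Submodule.span ℝ (↑(insert x R) : Set E), ⟪f, f⟫ = 1 ∧ ⟪f, x⟫ = 1 ∧
      (∀ u ∈ R, ⟪f, u⟫ = 0 ∨ ⟪f, u⟫ = 1) ∧ ⟪f, r⟫ = 1 ∧ ⟪f, c⟫ = 0 := by
  set S := R.filter fun u => ⟪c, u⟫ = 0 ∧ ⟪r, u⟫ = 1 with hS
  set S' := R.filter fun u => ⟪c, u⟫ = 0 ∧ ⟪r, u⟫ = 0 with hS'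
  have mS : ∀ u, u ∈ S ↔ u ∈ R ∧ ⟪c, u⟫ = 0 ∧ ⟪r, u⟫ = 1 := fun u => mem_filter
  have mS' : ∀ u, u ∈ S' ↔ u ∈ R ∧ ⟪c, u⟫ = 0 ∧ ⟪r, u⟫ = 0 := fun u => mem_filter
  have hrc : ⟪r, c⟫ = 1 := by rw [real_inner_comm]; exact hcr
  have xa : ∀ u ∈ R, ⟪x, u⟫ = 2 := fun u hu => by rw [real_inner_comm]; exact hF.ax u hu
  -- the partner
  have hpart : ∀ u ∈ R, ⟪c, u⟫ = 0 → x - c - u ∈ R ∧ ⟪c, x - c - u⟫ = 0 ∧
      ⟪r, x - c - u⟫ = 1 - ⟪r, u⟫ := fun u hu h0 => ⟨hF.closed hc hu h0, by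
    rw [inner_sub_right, inner_sub_right, hF.ax c hc, hF.aa c hc, h0]; norm_num, by
    rw [inner_sub_right, inner_sub_right, hF.ax r hr, hrc]; ring⟩
  have hne : ∀ u ∈ R, ⟪c, u⟫ = 0 → ⟪r, u⟫ = 0 ∨ ⟪r, u⟫ = 1 := fun u hu h0 => hF.ab r hr u hu
    (fun e => by rw [← e, hcr] at h0; norm_num at h0)
  have hSS' : S.card = S'.card := by
    refine card_bij' (fun u _ => x - c - u) (fun u _ => x - c - u) ?_ ?_ ?_ ?_
    · intro u hu
      rw [mS] at hu; rw [mS']
      obtain ⟨h1, h2, h3⟩ := hpart u hu.1 hu.2.1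
      exact ⟨h1, h2, by rw [h3, hu.2.2]; norm_num⟩
    · intro u hu
      rw [mS'] at hu; rw [mS]
      obtain ⟨h1, h2, h3⟩ := hpart u hu.1 hu.2.1
      exact ⟨h1, h2, by rw [h3, hu.2.2]; norm_num⟩
    · intro u _; abel
    · intro u _; abel
  have hS3 : S.card = 3 := by
    have e : R.filter (fun u => ⟪c, u⟫ = 0) = S ∪ S' := by
      ext u
      simp only [mem_union, mS, mS', mem_filter]
      constructor
      · rintro ⟨hu, h0⟩
        rcases hne u hu h0 with h | h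
        · exact Or.inr ⟨hu, h0, h⟩
        · exact Or.inl ⟨hu, h0, h⟩
      · rintro (⟨hu, h0, -⟩ | ⟨hu, h0, -⟩) <;> exact ⟨hu, h0⟩
    have h6 := hF.card_orth hc
    rw [e, card_union_of_disjoint (disjoint_left.2 fun u h1 h2 => by
      rw [mS] at h1; rw [mS'] at h2; linarith [h1.2.2, h2.2.2]), ← hSS'] at h6
    omega
  have hst : ∀ s ∈ S, ∀ t ∈ S, s ≠ t → ⟪s, t⟫ = 1 := by
    intro s hs t ht hne'
    rw [mS] at hs ht
    refine (hF.ab s hs.1 t ht.1 hne').resolve_left fun h0 => ?_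
    obtain ⟨hp, -, hrp⟩ := hpart s hs.1 hs.2.1
    have e : x - c - s = t := hF.eq_of_two hp ht.1 (by
      rw [inner_sub_left, inner_sub_left, xa t ht.1, ht.2.1, h0]; norm_num)
    rw [e, ht.2.2, hs.2.2] at hrp
    norm_num at hrp
  set σ := ∑ s ∈ S, s with hσ
  have hσS : ∀ s ∈ S, ⟪σ, s⟫ = 4 := by
    intro s hs
    rw [hσ, sum_inner, sum_congr rfl (g := fun t => 1 + if t = s then (1 : ℝ) else 0) (fun t ht => by
      by_cases e : t = s
      · subst e; rw [hF.aa t ((mS t).1 ht).1]; norm_num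
      · rw [hst t ht s hs e]; simp [e]), sum_add_distrib, sum_const, hS3, sum_ite_eq', if_pos hs]
    norm_num
  have hσσ : ⟪σ, σ⟫ = 12 := by
    conv_lhs => arg 2; rw [hσ]
    rw [inner_sum, sum_congr rfl hσS, sum_const, hS3]; norm_num
  have hσx : ⟪σ, x⟫ = 6 := by
    rw [hσ, sum_inner, sum_congr rfl (fun s hs => hF.ax s ((mS s).1 hs).1), sum_const, hS3]
    norm_num
  have hσc : ⟪σ, c⟫ = 0 := by
    rw [hσ, sum_inner]
    exact sum_eq_zero fun s hs => by rw [real_inner_comm]; exact ((mS s).1 hs).2.1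
  have hσr : ⟪σ, r⟫ = 3 := by
    rw [hσ, sum_inner, sum_congr rfl (g := fun _ => (1 : ℝ)) (fun s hs => by
      rw [real_inner_comm]; exact ((mS s).1 hs).2.2), sum_const, hS3]
    norm_num
  set f := (1 / 2 : ℝ) • (σ - x + c) with hf
  have hfs : f ∈ Submodule.span ℝ (↑(insert x R) : Set E) :=
    Submodule.smul_mem _ _ (Submodule.add_mem _ (Submodule.sub_mem _
      (Submodule.sum_mem _ fun s hs => mem_span ((mS s).1 hs).1) x_span) (mem_span hc))
  have hfu : ∀ u ∈ R, ⟪f, u⟫ = (⟪σ, u⟫ - 2 + ⟪c, u⟫) / 2 := fun u hu => by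
    rw [hf, real_inner_smul_left, inner_add_left, inner_sub_left, xa u hu]; ring
  have hff : ⟪f, f⟫ = 1 := by
    rw [hf, real_inner_smul_left, real_inner_smul_right]
    simp only [inner_sub_left, inner_sub_right, inner_add_left, inner_add_right, hσσ, hσx, hσc,
      hF.xx, hF.aa c hc, hF.ax c hc, real_inner_comm σ x, real_inner_comm σ c, real_inner_comm c x]
    norm_num
  have hfx : ⟪f, x⟫ = 1 := by
    rw [hf, real_inner_smul_left, inner_add_left, inner_sub_left, hσx, hF.xx, hF.ax c hc]; norm_num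
  refine ⟨f, hfs, hff, hfx, ?_, by rw [hfu r hr, hσr, hcr]; norm_num,
    by rw [hfu c hc, hσc, hF.aa c hc]; norm_num⟩
  -- no vector meets `c` and misses all of `S`
  have key : ∀ u ∈ R, ⟪c, u⟫ = 1 → ∃ s ∈ S, ⟪u, s⟫ ≠ 0 := by
    intro u hu hcu
    by_contra hno
    push Not at hno
    have hq : ∀ s ∈ S, x - u - s ∈ R.filter (fun w => ⟪u, w⟫ = 0) ∧ ⟪c, x - u - s⟫ = 1 := by
      intro s hs
      refine ⟨mem_filter.2 ⟨hF.closed hu ((mS s).1 hs).1 (hno s hs), ?_⟩, ?_⟩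
      · rw [inner_sub_right, inner_sub_right, hF.ax u hu, hF.aa u hu, hno s hs]; norm_num
      · rw [inner_sub_right, inner_sub_right, hF.ax c hc, hcu, ((mS s).1 hs).2.1]; norm_num
    set U := S ∪ S.image (fun s => x - u - s) with hU
    have hUc : U.card = 6 := by
      rw [hU, card_union_of_disjoint, card_image_of_injOn, hS3]
      · intro s _ t _ e; exact sub_right_injective e
      · refine disjoint_left.2 fun w hw hw' => ?_
        obtain ⟨s, hs, rfl⟩ := mem_image.1 hw'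
        rw [mS] at hw
        linarith [hw.2.1, (hq s hs).2]
    have hUsub : U ⊆ R.filter (fun w => ⟪u, w⟫ = 0) := by
      intro w hw
      rcases mem_union.1 hw with hw | hw
      · exact mem_filter.2 ⟨((mS w).1 hw).1, hno w hw⟩
      · obtain ⟨s, hs, rfl⟩ := mem_image.1 hw
        exact (hq s hs).1
    suffices ∃ z ∈ R, ⟪u, z⟫ = 0 ∧ ⟪c, z⟫ = 1 ∧ ∀ s ∈ S, z ≠ x - u - s by
      obtain ⟨z, hzR, hzu, hzc, hz⟩ := this
      have hzU : z ∉ U := by
        intro hzU
        rcases mem_union.1 hzU with h | h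
        · rw [mS] at h; linarith [h.2.1]
        · obtain ⟨s, hs, e⟩ := mem_image.1 h
          exact hz s hs e.symm
      have := card_le_card (insert_subset (mem_filter.2 ⟨hzR, hzu⟩ : z ∈ R.filter _) hUsub)
      rw [card_insert_of_notMem hzU, hUc, hF.card_orth hu] at this
      omega
    have hur : u ≠ r := by
      rintro rfl
      obtain ⟨s, hs⟩ : S.Nonempty := card_pos.1 (by rw [hS3]; norm_num)
      have := hno s hs
      rw [((mS s).1 hs).2.2] at this
      norm_num at this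
    rcases hF.ab u hu r hr hur with h | h
    · refine ⟨r, hr, h, hcr, fun s hs e => ?_⟩
      have h1 := ((mS s).1 hs).2.2
      rw [e, inner_sub_left, inner_sub_left, xa s ((mS s).1 hs).1, hno s hs,
        hF.aa s ((mS s).1 hs).1] at h1
      norm_num at h1
    · obtain ⟨q, hq'⟩ : S.Nonempty := card_pos.1 (by rw [hS3]; norm_num)
      have hqS := (mS q).1 hq'
      obtain ⟨hp, hcp, hrp⟩ := hpart q hqS.1 hqS.2.1
      rw [hqS.2.2, sub_self] at hrp
      refine ⟨x - r - (x - c - q), hF.closed hr hp hrp, ?_, ?_, fun s hs e => ?_⟩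
      · simp only [inner_sub_right, hF.ax u hu, real_inner_comm c u ▸ hcu, h, hno q hq']
        norm_num
      · rw [inner_sub_right, inner_sub_right, hF.ax c hc, hcr, hcp]; norm_num
      · obtain ⟨t, ht⟩ : ((S.erase s).erase q).Nonempty := card_pos.1 (by
          have h1 := card_erase_of_mem hs
          have h2 := pred_card_le_card_erase (s := S.erase s) (a := q)
          omega)
        simp only [mem_erase] at ht
        have htS := (mS t).1 ht.2.2
        have e' := congrArg (fun v => ⟪t, v⟫) e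
        simp only [inner_sub_right, hF.ax t htS.1] at e'
        rw [real_inner_comm r t, htS.2.2, real_inner_comm c t, htS.2.1,
          hst t ht.2.2 q hq' ht.1, real_inner_comm u t, hno t ht.2.2,
          hst t ht.2.2 s hs ht.2.1] at e'
        norm_num at e'
  have hnn : ∀ u ∈ R, 0 ≤ ⟪f, u⟫ ∧ ⟪f, u⟫ ≤ 1 := by
    intro u hu
    rw [hfu u hu]
    rcases hF.ab' hc hu with ⟨rfl, e⟩ | ⟨-, e | e⟩
    · rw [hσc, e]; norm_num
    · rcases hne u hu e with h | h
      · obtain ⟨hp, hcp, hrp⟩ := hpart u hu e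
        rw [h, sub_zero] at hrp
        have h4 := hσS _ ((mS _).2 ⟨hp, hcp, hrp⟩)
        rw [inner_sub_right, inner_sub_right, hσx, hσc] at h4
        rw [e]; constructor <;> linarith
      · rw [hσS u ((mS u).2 ⟨hu, e, h⟩), e]; norm_num
    · have hle : ∀ s ∈ S, 0 ≤ ⟪s, u⟫ ∧ ⟪s, u⟫ ≤ 1 := fun s hs => by
        have hsu : s ≠ u := fun h' => by
          have := ((mS s).1 hs).2.1
          rw [h', e] at this; norm_num at this
        rcases hF.ab s ((mS s).1 hs).1 u hu hsu with h | h <;> rw [h] <;> norm_num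
      have h1 : ⟪σ, u⟫ ≤ 3 := by
        rw [hσ, sum_inner]
        refine (sum_le_sum fun s hs => (hle s hs).2).trans ?_
        rw [sum_const, hS3]; norm_num
      obtain ⟨s, hs, hs0⟩ := key u hu e
      have hs1 : ⟪s, u⟫ = 1 := by
        rcases hF.ab' ((mS s).1 hs).1 hu with ⟨rfl, -⟩ | ⟨-, h | h⟩
        · rw [((mS s).1 hs).2.1] at e; norm_num at e
        · rw [real_inner_comm] at h; exact absurd h hs0
        · exact h
      have h2 : 1 ≤ ⟪σ, u⟫ := by
        rw [hσ, sum_inner, ← hs1]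
        exact single_le_sum (fun s hs => (hle s hs).1) hs
      rw [e]; constructor <;> linarith
  have h0 : ∑ u ∈ R, ⟪f, u⟫ * (1 - ⟪f, u⟫) = 0 := by
    simp only [mul_sub, mul_one, sum_sub_distrib, hF.lin hfs, hF.quad hfs hfs, hff, hfx]
    norm_num
  rw [sum_eq_zero_iff_of_nonneg fun u hu =>
    mul_nonneg (hnn u hu).1 (sub_nonneg.2 (hnn u hu).2)] at h0
  intro u hu
  rcases mul_eq_zero.1 (h0 u hu) with h | h
  · exact Or.inl h
  · exact Or.inr (by linarith)

omit hF in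
theorem mem_cliques {K : Finset E} :
    K ∈ cliques R ↔ (K ⊆ R ∧ K.card = 5) ∧ ∀ u ∈ K, ∀ v ∈ K, u ≠ v → ⟪u, v⟫ = 1 := by
  simp [cliques, mem_powersetCard]

theorem point_clique {f : E} (hfs : f ∈ Submodule.span ℝ (↑(insert x R) : Set E))
    (hff : ⟪f, f⟫ = 1) (hfx : ⟪f, x⟫ = 1) (h01 : ∀ u ∈ R, ⟪f, u⟫ = 0 ∨ ⟪f, u⟫ = 1) :
    R.filter (fun u => ⟪f, u⟫ = 1) ∈ cliques R := by
  refine mem_cliques.2 ⟨⟨filter_subset _ _, ?_⟩, ?_⟩
  · have h := hF.lin hfs
    rw [hfx, sum_congr rfl (g := fun u => if ⟪f, u⟫ = 1 then (1 : ℝ) else 0) (fun u hu => by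
      rcases h01 u hu with e | e <;> simp [e]), ← sum_filter, sum_const, nsmul_eq_mul] at h
    exact_mod_cast (by linarith : ((R.filter fun u => ⟪f, u⟫ = 1).card : ℝ) = 5)
  · intro u hu v hv hne
    rw [mem_filter] at hu hv
    refine (hF.ab u hu.1 v hv.1 hne).resolve_left fun h0 => ?_
    have e : u + v = (2 : ℝ) • f := eq_of_inner (by
      simp only [inner_add_left, inner_add_right, real_inner_smul_left, real_inner_smul_right,
        hF.aa u hu.1, hF.aa v hv.1, hff, h0, real_inner_comm u v, real_inner_comm f u,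
        real_inner_comm f v, hu.2, hv.2]
      norm_num)
    have := congrArg (fun w => ⟪w, x⟫) e
    simp only [inner_add_left, real_inner_smul_left, hF.ax u hu.1, hF.ax v hv.1, hfx] at this
    norm_num at this

theorem cliques_through {a : E} (ha : a ∈ R) : ((cliques R).filter fun K => a ∈ K).card = 2 := by
  obtain ⟨c, hc⟩ : (R.filter fun u => ⟪a, u⟫ = 1).Nonempty :=
    card_pos.1 (by rw [hF.card_nbr ha]; norm_num)
  rw [mem_filter] at hc
  obtain ⟨f, hfs, hff, hfx, hf01, hfa, hfc⟩ := hF.exists_point hc.1 ha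
    (by rw [real_inner_comm]; exact hc.2)
  set g := a - f with hg
  have hgs : g ∈ Submodule.span ℝ (↑(insert x R) : Set E) := Submodule.sub_mem _ (mem_span ha) hfs
  have hgg : ⟪g, g⟫ = 1 := by
    simp only [hg, inner_sub_left, inner_sub_right, hF.aa a ha, hff, hfa, real_inner_comm f a]
    norm_num
  have hgx : ⟪g, x⟫ = 1 := by rw [hg, inner_sub_left, hF.ax a ha, hfx]; norm_num
  have hKf := hF.point_clique hfs hff hfx hf01
  set A := R.filter fun u => ⟪f, u⟫ = 1 with hA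
  have hgu : ∀ u, ⟪g, u⟫ = ⟪a, u⟫ - ⟪f, u⟫ := fun u => by rw [hg, inner_sub_left]
  have hga : ⟪g, a⟫ = 1 := by rw [hgu, hF.aa a ha, hfa]; norm_num
  have hg01 : ∀ u ∈ R, ⟪g, u⟫ = 0 ∨ ⟪g, u⟫ = 1 := by
    intro u hu
    rcases hF.ab' ha hu with ⟨rfl, -⟩ | ⟨hne, e⟩
    · exact Or.inr hga
    · rcases hf01 u hu with e' | e'
      · rcases e with e | e <;> simp [hgu, e, e']
      · have h1 := (mem_cliques.1 hKf).2 a (mem_filter.2 ⟨ha, hfa⟩) u (mem_filter.2 ⟨hu, e'⟩) hne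
        simp [hgu, h1, e']
  have hKg := hF.point_clique hgs hgg hgx hg01
  set B := R.filter fun u => ⟪g, u⟫ = 1 with hB
  have haA : a ∈ A := mem_filter.2 ⟨ha, hfa⟩
  have haB : a ∈ B := mem_filter.2 ⟨ha, hga⟩
  have hAB : A ≠ B := by
    intro e
    have h1 : c ∈ B := mem_filter.2 ⟨hc.1, by rw [hgu, hc.2, hfc]; norm_num⟩
    rw [← e, mem_filter, hfc] at h1
    norm_num at h1
  -- each member of one clique has one neighbour in the other, besides `a`
  have one : ∀ p q : E, p ∈ Submodule.span ℝ (↑(insert x R) : Set E) → ⟪p, x⟫ = 1 →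
      (∀ u ∈ R, ⟪p, u⟫ = 0 ∨ ⟪p, u⟫ = 1) → ⟪p, a⟫ = 1 → q ∈ R → ⟪p, q⟫ = 0 → ⟪q, a⟫ = 1 →
      (((R.filter fun u => ⟪p, u⟫ = 1).erase a).filter fun u => ⟪q, u⟫ = 1).card ≤ 1 := by
    intro p q hps hpx hp01 hpa hq hpq hqa
    have h := hF.quad hps (mem_span hq)
    rw [hpq, hpx, hF.ax q hq, sum_congr rfl (g := fun u => if ⟪p, u⟫ = 1 then ⟪q, u⟫ else 0)
      (fun u hu => by rcases hp01 u hu with e | e <;> simp [e]), ← sum_filter,
      ← add_sum_erase _ _ (mem_filter.2 ⟨ha, hpa⟩ : a ∈ R.filter fun u => ⟪p, u⟫ = 1), hqa] at h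
    have hle : (((((R.filter fun u => ⟪p, u⟫ = 1).erase a).filter fun u => ⟪q, u⟫ = 1).card : ℕ) : ℝ)
        ≤ ∑ u ∈ (R.filter fun u => ⟪p, u⟫ = 1).erase a, ⟪q, u⟫ := by
      rw [card_filter, Nat.cast_sum]
      refine sum_le_sum fun u hu => ?_
      simp only [mem_erase, mem_filter] at hu
      rcases hF.ab' hq hu.2.1 with ⟨-, e⟩ | ⟨-, e | e⟩ <;> rw [e] <;> norm_num
    have hr : ((_ : ℕ) : ℝ) ≤ 1 := hle.trans (by linarith)
    exact_mod_cast hr
  have e : (cliques R).filter (fun K => a ∈ K) = {A, B} := by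
    ext K
    simp only [mem_filter, mem_insert, mem_singleton]
    constructor
    · rintro ⟨hK, haK⟩
      obtain ⟨⟨hKR, hK5⟩, hK1⟩ := mem_cliques.1 hK
      have hsplit : ∀ u ∈ K, u ≠ a → (u ∈ A ∧ u ∉ B) ∨ (u ∈ B ∧ u ∉ A) := by
        intro u hu hne
        have h1 := hgu u
        rw [hK1 a haK u hu hne.symm] at h1
        rcases hf01 u (hKR hu) with e | e <;> rw [e] at h1
        · exact Or.inr ⟨mem_filter.2 ⟨hKR hu, by linarith⟩, fun h => by
            linarith [(mem_filter.1 h).2]⟩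
        · exact Or.inl ⟨mem_filter.2 ⟨hKR hu, e⟩, fun h => by linarith [(mem_filter.1 h).2]⟩
      by_contra hne
      simp only [not_or] at hne
      have hA5 := (mem_cliques.1 hKf).1.2
      have hB5 := (mem_cliques.1 hKg).1.2
      obtain ⟨p, hp, hpA⟩ : ∃ p ∈ K, p ∉ A := by
        by_contra hc'
        push Not at hc'
        exact hne.1 (eq_of_subset_of_card_le hc' (by omega))
      obtain ⟨q, hq, hqB⟩ : ∃ q ∈ K, q ∉ B := by
        by_contra hc'
        push Not at hc'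
        exact hne.2 (eq_of_subset_of_card_le hc' (by omega))
      have hpa : p ≠ a := fun e => hpA (e ▸ haA)
      have hqa : q ≠ a := fun e => hqB (e ▸ haB)
      have hpB := ((hsplit p hp hpa).resolve_left fun h => hpA h.1).1
      have hqA := ((hsplit q hq hqa).resolve_right fun h => hqB h.1).1
      have hfp : ⟪f, p⟫ = 0 := (hf01 p (hKR hp)).resolve_right fun e =>
        hpA (mem_filter.2 ⟨hKR hp, e⟩)
      have hgq : ⟪g, q⟫ = 0 := (hg01 q (hKR hq)).resolve_right fun e =>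
        hqB (mem_filter.2 ⟨hKR hq, e⟩)
      have h1 := one f p hfs hfx hf01 hfa (hKR hp) hfp (hK1 p hp a haK hpa)
      have h2 := one g q hgs hgx hg01 hga (hKR hq) hgq (hK1 q hq a haK hqa)
      have hcov : K.erase a ⊆ ((A.erase a).filter fun u => ⟪p, u⟫ = 1) ∪
          ((B.erase a).filter fun u => ⟪q, u⟫ = 1) := by
        intro u hu
        rw [mem_erase] at hu
        rcases hsplit u hu.2 hu.1 with ⟨h, -⟩ | ⟨h, -⟩
        · refine mem_union_left _ (mem_filter.2 ⟨mem_erase.2 ⟨hu.1, h⟩, hK1 p hp u hu.2 ?_⟩)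
          rintro rfl; exact hpA h
        · refine mem_union_right _ (mem_filter.2 ⟨mem_erase.2 ⟨hu.1, h⟩, hK1 q hq u hu.2 ?_⟩)
          rintro rfl; exact hqB h
      have := (card_le_card hcov).trans (card_union_le _ _)
      rw [card_erase_of_mem haK, hK5] at this
      simp only [hA, hB] at this
      omega
    · rintro (rfl | rfl)
      · exact ⟨hKf, haA⟩
      · exact ⟨hKg, haB⟩
  rw [e, card_pair hAB]

theorem card_cliques : (cliques R).card = 6 := by
  have h : ∑ K ∈ cliques R, K.card = ∑ a ∈ R, ((cliques R).filter fun K => a ∈ K).card := by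
    simp only [card_filter]
    rw [sum_comm]
    refine sum_congr rfl fun K hK => ?_
    rw [← card_filter, filter_mem_eq_inter, inter_eq_right.2 (mem_cliques.1 hK).1.1]
  rw [sum_congr rfl (fun K hK => (mem_cliques.1 hK).1.2), sum_congr rfl (fun a ha =>
    hF.cliques_through ha), sum_const, sum_const, hF.card_eq, smul_eq_mul, smul_eq_mul] at h
  omega

end Frame

end Cfsg.Agent.H10.S77
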